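/-
Core computations for S1617 (TRIPLE): raw form, no structures.
`D` a conjugation-closed set of involutions, any two commute or have product of order `p`, `p` an odd prime.
-/
import Mathlib

set_option autoImplicit false

namespace Cfsg.Agent.Lib.OddTransCore

variable {G : Type*} [Group G]

/-- The hypothesis: `D` is a conjugation-closed set of involutions and two of its members commute or
have product of order `p`. -/
structure PS (p : ℕ) (D : Set G) : Prop where
  inv : ∀ d ∈ D, d ≠ 1 ∧ d * d = 1
  cl : ∀ d ∈ D, ∀ g : G, g * d * g⁻¹ ∈ D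
  dich : ∀ a ∈ D, ∀ b ∈ D, Commute a b ∨ orderOf (a * b) = p

variable {p : ℕ} {D : Set G}

lemma PS.inv_eq (h : PS p D) {d : G} (hd : d ∈ D) : d⁻¹ = d :=
  inv_eq_of_mul_eq_one_left (h.inv d hd).2

lemma PS.conj' (h : PS p D) {d g : G} (hd : d ∈ D) (hg : g ∈ D) : g * d * g ∈ D := by
  have := h.cl d hd g
  rwa [h.inv_eq hg] at this

/-- `no_swap`: if `a`, `d` do not commute then `a` does not commute with `d a d`; the product is `(a d)^2`, of order `p`. -/
lemma PS.order_swap (h : PS p D) (hp : p.Prime) (hp2 : p ≠ 2) {a d : G} (ha : a ∈ D) (hd : d ∈ D)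
    (hn : ¬ Commute a d) : orderOf (a * (d * a * d)) = p := by
  have hord : orderOf (a * d) = p := (h.dich a ha d hd).resolve_left hn
  have e : a * (d * a * d) = (a * d) ^ 2 := by
    rw [pow_two]; group
  rw [e]
  have hc : (orderOf (a * d)).Coprime 2 := by
    rw [hord]
    exact (Nat.coprime_primes hp Nat.prime_two).2 hp2
  rw [hc.orderOf_pow, hord]

lemma PS.not_comm_swap (h : PS p D) (hp : p.Prime) (hp2 : p ≠ 2) {a d : G} (ha : a ∈ D) (hd : d ∈ D)
    (hn : ¬ Commute a d) : ¬ Commute a (d * a * d) := by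
  intro hc
  have h1 := h.order_swap hp hp2 ha hd hn
  have ha' := h.conj' ha hd
  have h2 : (a * (d * a * d)) ^ 2 = 1 := by
    rw [hc.mul_pow, pow_two, pow_two, (h.inv a ha).2, (h.inv _ ha').2, one_mul]
  have h3 := orderOf_dvd_of_pow_eq_one h2
  rw [h1] at h3
  have := (Nat.prime_dvd_prime_iff_eq hp Nat.prime_two).1 h3
  exact hp2 this

/-- `Lemma A`: commuting `a ≠ b`, `d` commuting with `a b` commutes with `a`. -/
lemma PS.lemmaA_left (h : PS p D) (hp : p.Prime) (hp2 : p ≠ 2) {a b d : G} (ha : a ∈ D) (hb : b ∈ D)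
    (hd : d ∈ D) (hab : Commute a b) (hne : a ≠ b) (hdz : Commute d (a * b)) : Commute d a := by
  by_contra hn
  have hn' : ¬ Commute a d := fun hc => hn hc.symm
  set a' := d * a * d with ha'def
  set b' := d * b * d with hb'def
  have ha'D : a' ∈ D := h.conj' ha hd
  have hb'D : b' ∈ D := h.conj' hb hd
  have haa := (h.inv a ha).2
  have hbb := (h.inv b hb).2
  have hdd := (h.inv d hd).2
  have ha'a' := (h.inv a' ha'D).2
  have hb'b' := (h.inv b' hb'D).2
  -- `a' b' = a b`
  have e1 : a' * b' = a * b := by
    have : a' * b' = d * (a * b) * d := by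
      calc a' * b' = d * a * (d * d) * b * d := by rw [ha'def, hb'def]; group
        _ = d * (a * b) * d := by rw [hdd]; group
    rw [this, hdz.eq, mul_assoc, hdd, mul_one]
  set ρ := a * a' with hρ
  have hρord : orderOf ρ = p := h.order_swap hp hp2 ha hd hn'
  -- `ρ = b b'`
  have e2 : ρ = b * b' := by
    have h1 : a' = a * b * b' := by
      calc a' = a' * (b' * b') := by rw [hb'b', mul_one]
        _ = (a' * b') * b' := by group
        _ = a * b * b' := by rw [e1]
    calc ρ = a * (a * b * b') := by rw [hρ, ← h1]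
      _ = (a * a) * b * b' := by group
      _ = b * b' := by rw [haa, one_mul]
  -- `a b` commutes with `ρ`
  have h1 : a * ρ * a = ρ⁻¹ := by
    rw [hρ]
    apply eq_inv_of_mul_eq_one_left
    calc a * (a * a') * a * (a * a') = (a * a) * a' * (a * a) * a' := by group
      _ = 1 := by rw [haa, one_mul, mul_one, ha'a']
  have h2 : b * ρ * b = ρ⁻¹ := by
    rw [e2]
    apply eq_inv_of_mul_eq_one_left
    calc b * (b * b') * b * (b * b') = (b * b) * b' * (b * b) * b' := by group
      _ = 1 := by rw [hbb, one_mul, mul_one, hb'b']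
  have hcρ : Commute (a * b) ρ := by
    show a * b * ρ = ρ * (a * b)
    have h3 : b * ρ = ρ⁻¹ * b := by
      calc b * ρ = (b * ρ * b) * b := by rw [mul_assoc _ b b, hbb, mul_one]
        _ = ρ⁻¹ * b := by rw [h2]
    have h4 : a * ρ⁻¹ = ρ * a := by
      have : a * ρ⁻¹ * a = ρ := by
        calc a * ρ⁻¹ * a = a * (a * ρ * a) * a := by rw [h1]
          _ = (a * a) * ρ * (a * a) := by group
          _ = ρ := by rw [haa, one_mul, mul_one]
      calc a * ρ⁻¹ = (a * ρ⁻¹ * a) * a := by rw [mul_assoc _ a a, haa, mul_one]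
        _ = ρ * a := by rw [this]
    calc a * b * ρ = a * (b * ρ) := by group
      _ = a * (ρ⁻¹ * b) := by rw [h3]
      _ = (a * ρ⁻¹) * b := by group
      _ = ρ * a * b := by rw [h4]
      _ = ρ * (a * b) := by group
  -- the order of `a b`
  have hcne : a * b ≠ 1 := by
    intro hc
    apply hne
    have : a = b⁻¹ := eq_inv_of_mul_eq_one_left hc
    rw [this, h.inv_eq hb]
  have hc2 : orderOf (a * b) = 2 := by
    apply orderOf_eq_prime _ hcne
    rw [hab.mul_pow, pow_two, pow_two, haa, hbb, one_mul]
  -- `b a' = (a b) ρ` has order `2p`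
  have e3 : b * a' = (a * b) * ρ := by
    rw [hρ]
    calc b * a' = b * (a * a) * a' := by rw [haa, mul_one]
      _ = (b * a) * (a * a') := by group
      _ = (a * b) * (a * a') := by rw [hab.eq]
  have hcop : (orderOf (a * b)).Coprime (orderOf ρ) := by
    rw [hc2, hρord]
    exact (Nat.coprime_primes Nat.prime_two hp).2 (Ne.symm hp2)
  have hord2p : orderOf (b * a') = 2 * p := by
    rw [e3, hcρ.orderOf_mul_eq_mul_orderOf_of_coprime hcop, hc2, hρord]
  have hp3 : 2 < p := lt_of_le_of_ne hp.two_le (Ne.symm hp2)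
  rcases h.dich b hb a' ha'D with hc | hc
  · have h2' : (b * a') ^ 2 = 1 := by
      rw [hc.mul_pow, pow_two, pow_two, hbb, ha'a', one_mul]
    have := orderOf_dvd_of_pow_eq_one h2'
    rw [hord2p] at this
    have := Nat.le_of_dvd (by norm_num) this
    omega
  · rw [hord2p] at hc
    omega

lemma PS.lemmaA_right (h : PS p D) (hp : p.Prime) (hp2 : p ≠ 2) {a b d : G} (ha : a ∈ D) (hb : b ∈ D)
    (hd : d ∈ D) (hab : Commute a b) (hne : a ≠ b) (hdz : Commute d (a * b)) : Commute d b :=
  h.lemmaA_left hp hp2 hb ha hd hab.symm (Ne.symm hne) (by rw [← hab.eq]; exact hdz)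

/-- The midpoint: `a`, `b` with `a b` of order `p`; `m = (a b)^((p-1)/2) a ∈ D`, `m a m = b`. -/
lemma PS.mid (h : PS p D) (hp : p.Prime) (hp2 : p ≠ 2) {a b : G} (ha : a ∈ D) (hb : b ∈ D)
    (hord : orderOf (a * b) = p) :
    ((a * b) ^ ((p - 1) / 2) * a) ∈ D ∧
      ((a * b) ^ ((p - 1) / 2) * a) * a * ((a * b) ^ ((p - 1) / 2) * a) = b := by
  set r := a * b with hr
  have haa := (h.inv a ha).2
  have hbb := (h.inv b hb).2
  have hrp : r ^ p = 1 := by rw [← hord]; exact pow_orderOf_eq_one r
  have hinv : a * r * a = r⁻¹ := by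
    rw [hr, mul_inv_rev, h.inv_eq ha, h.inv_eq hb]
    calc a * (a * b) * a = (a * a) * b * a := by group
      _ = b * a := by rw [haa, one_mul]
  have hinvpow : ∀ n : ℕ, a * r ^ n * a = (r ^ n)⁻¹ := by
    intro n
    induction n with
    | zero => simp [haa]
    | succ n ih =>
      calc a * r ^ (n + 1) * a = (a * r ^ n * a) * (a * r * a) := by
            rw [pow_succ]
            calc a * (r ^ n * r) * a = a * r ^ n * (a * a) * r * a := by rw [haa]; group
              _ = _ := by group
        _ = (r ^ n)⁻¹ * r⁻¹ := by rw [ih, hinv]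
        _ = (r ^ (n + 1))⁻¹ := by rw [pow_succ' r n]; exact (mul_inv_rev r (r ^ n)).symm
  have hodd : Odd p := hp.odd_of_ne_two hp2
  obtain ⟨t, ht⟩ := hodd
  have hk : (p - 1) / 2 = t := by omega
  rw [hk]
  have hcompute : r ^ (t + (t + 1) * t * 2 - (t + 1) * t * 2 + 0) = r ^ t := by simp
  -- `s` with `2 s ≡ t` modulo `p`
  have hs : r ^ ((t + 1) * t) * r ^ ((t + 1) * t) = r ^ t := by
    rw [← pow_add]
    have e : (t + 1) * t + (t + 1) * t = t + p * t := by rw [ht]; ring
    rw [e, pow_add, pow_mul, hrp, one_pow, mul_one]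
  constructor
  · have h0 := h.cl a ha (r ^ ((t + 1) * t))
    have e : r ^ ((t + 1) * t) * a * (r ^ ((t + 1) * t))⁻¹ = r ^ t * a := by
      have h1 : a * (r ^ ((t + 1) * t))⁻¹ = r ^ ((t + 1) * t) * a := by
        have h2 := hinvpow ((t + 1) * t)
        calc a * (r ^ ((t + 1) * t))⁻¹ = (a * (r ^ ((t + 1) * t))⁻¹ * a) * a := by
              rw [mul_assoc _ a a, haa, mul_one]
          _ = (a * (a * r ^ ((t + 1) * t) * a) * a) * a := by rw [h2]
          _ = ((a * a) * r ^ ((t + 1) * t) * (a * a)) * a := by group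
          _ = r ^ ((t + 1) * t) * a := by rw [haa, one_mul, mul_one]
      rw [mul_assoc, h1, ← mul_assoc, hs]
    rwa [e] at h0
  · have h1 : r ^ t * a * a * (r ^ t * a) = r ^ (t + t) * a := by
      rw [mul_assoc (r ^ t) a a, haa, mul_one, ← mul_assoc, ← pow_add]
    rw [h1]
    have e : r ^ (t + t) = r⁻¹ := by
      apply eq_inv_of_mul_eq_one_left
      rw [← pow_succ]
      have : t + t + 1 = p := by omega
      rw [this, hrp]
    rw [e, hr, mul_inv_rev, h.inv_eq ha, h.inv_eq hb, mul_assoc, haa, mul_one]

/-- TRIPLE, raw form. `a ⊥ b`, `a ≠ b`, `y` commutes with neither, `z = a b`, `y' = z y z`.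
Then `y' ≠ y`. -/
lemma PS.triple_ne (h : PS p D) (hp : p.Prime) (hp2 : p ≠ 2) {a b y : G} (ha : a ∈ D) (hb : b ∈ D)
    (hy : y ∈ D) (hab : Commute a b) (hne : a ≠ b) (hya : ¬ Commute y a) :
    (a * b) * y * (a * b) ≠ y := by
  intro he
  apply hya
  refine h.lemmaA_left hp hp2 ha hb hy hab hne ?_
  have hzz : (a * b) * (a * b) = 1 := by
    calc (a * b) * (a * b) = a * (b * a) * b := by group
      _ = a * (a * b) * b := by rw [hab.eq]
      _ = (a * a) * (b * b) := by group
      _ = 1 := by rw [(h.inv a ha).2, (h.inv b hb).2, one_mul]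
  show y * (a * b) = (a * b) * y
  calc y * (a * b) = ((a * b) * y * (a * b)) * (a * b) := by rw [he]
    _ = (a * b) * y * ((a * b) * (a * b)) := by group
    _ = (a * b) * y := by rw [hzz, mul_one]

/-- TRIPLE, `δ = 0`: there is `c ∈ D` with the listed properties. -/
theorem PS.triple (h : PS p D) (hp : p.Prime) (hp2 : p ≠ 2) {a b y : G} (ha : a ∈ D) (hb : b ∈ D)
    (hy : y ∈ D) (hab : Commute a b) (hne : a ≠ b) (hya : ¬ Commute y a) (hyb : ¬ Commute y b)
    (hd0 : ¬ Commute y ((a * b) * y * (a * b))) :
    ∃ c ∈ D, c ∈ Subgroup.closure ({y, a * b} : Set G) ∧ Commute c a ∧ Commute c b ∧ c ≠ a ∧ c ≠ b ∧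
      c * y * c = (a * b) * y * (a * b) ∧ Commute (a * b * c) y ∧ ¬ Commute c y := by
  have haa := (h.inv a ha).2
  have hbb := (h.inv b hb).2
  have hyy := (h.inv y hy).2
  set z := a * b with hz
  have hzz : z * z = 1 := by
    calc z * z = a * (b * a) * b := by rw [hz]; group
      _ = a * (a * b) * b := by rw [hab.eq]
      _ = (a * a) * (b * b) := by group
      _ = 1 := by rw [haa, hbb, one_mul]
  have hzi : z⁻¹ = z := inv_eq_of_mul_eq_one_left hzz
  have hy'D : z * y * z ∈ D := by
    have := h.cl y hy z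
    rwa [hzi] at this
  set y' := z * y * z with hy'
  have hord : orderOf (y * y') = p := (h.dich y hy y' hy'D).resolve_left hd0
  obtain ⟨hcD, hcm⟩ := h.mid hp hp2 hy hy'D hord
  set k := (p - 1) / 2 with hk
  set g := y * y' with hg
  set c := g ^ k * y with hc
  have hy'y' := (h.inv y' hy'D).2
  -- `z` inverts `g`
  have hzg : z * g * z = g⁻¹ := by
    rw [hg, mul_inv_rev, h.inv_eq hy, h.inv_eq hy'D, hy']
    calc z * (y * (z * y * z)) * z = (z * y * z) * y * (z * z) := by group
      _ = z * y * z * y := by rw [hzz, mul_one]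
  have hzgk : z * g ^ k * z = (g ^ k)⁻¹ := by
    have h1 : ∀ n : ℕ, z * g ^ n * z = (g ^ n)⁻¹ := by
      intro n
      induction n with
      | zero => simp [hzz]
      | succ n ih =>
        calc z * g ^ (n + 1) * z = (z * g ^ n * z) * (z * g * z) := by
              rw [pow_succ]
              calc z * (g ^ n * g) * z = z * g ^ n * (z * z) * g * z := by rw [hzz]; group
                _ = _ := by group
          _ = (g ^ n)⁻¹ * g⁻¹ := by rw [ih, hzg]
          _ = (g ^ (n + 1))⁻¹ := by rw [pow_succ' g n]; exact (mul_inv_rev g (g ^ n)).symm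
    exact h1 k
  have hodd : Odd p := hp.odd_of_ne_two hp2
  obtain ⟨t, ht⟩ := hodd
  have hkt : k = t := by rw [hk]; omega
  have hgp : g ^ p = 1 := by rw [← hord]; exact pow_orderOf_eq_one g
  have h2k : g ^ k * g ^ k = g⁻¹ := by
    rw [← pow_add]
    apply eq_inv_of_mul_eq_one_left
    rw [← pow_succ]
    have : k + k + 1 = p := by omega
    rw [this, hgp]
  -- `c` commutes with `z`
  have hcz : Commute c z := by
    show c * z = z * c
    have h1 : z * c * z = c := by
      rw [hc]
      calc z * (g ^ k * y) * z = (z * g ^ k * z) * (z * y * z) := by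
            calc z * (g ^ k * y) * z = z * g ^ k * (z * z) * y * z := by rw [hzz]; group
              _ = _ := by group
        _ = (g ^ k)⁻¹ * y' := by rw [hzgk]
        _ = g ^ k * y := by
            have e1 : y' = y * g := by
              rw [hg, ← mul_assoc, hyy, one_mul]
            have e2 : (g ^ k)⁻¹ = g ^ k * g := by
              apply eq_comm.mp
              apply eq_inv_of_mul_eq_one_left
              calc g ^ k * g * g ^ k = g ^ k * (g * g ^ k) := by group
                _ = g ^ k * (g ^ k * g) := by rw [(Commute.refl g).pow_right k |>.eq]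
                _ = (g ^ k * g ^ k) * g := by group
                _ = 1 := by rw [h2k, inv_mul_cancel]
            rw [e2, e1]
            have e3 : g * y = y * g⁻¹ := by
              have e4 : g⁻¹ = y' * y := by rw [hg, mul_inv_rev, h.inv_eq hy, h.inv_eq hy'D]
              rw [e4, hg, mul_assoc]
            calc g ^ k * g * (y * g) = g ^ k * (g * y) * g := by group
              _ = g ^ k * (y * g⁻¹) * g := by rw [e3]
              _ = g ^ k * y := by group
    calc c * z = (z * c * z) * z := by rw [h1]
      _ = z * c * (z * z) := by group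
      _ = z * c := by rw [hzz, mul_one]
  have hca : Commute c a := h.lemmaA_left hp hp2 ha hb hcD hab hne hcz
  have hcb : Commute c b := h.lemmaA_right hp hp2 ha hb hcD hab hne hcz
  have hcc := (h.inv c hcD).2
  have hcy : c * y * c = y' := hcm
  have hc_ne_a : c ≠ a := by
    intro he
    apply hyb
    have h1 : a * y * a = y' := by rw [← he]; exact hcy
    have h2 : y = b * y * b := by
      calc y = (a * a) * y * (a * a) := by rw [haa, one_mul, mul_one]
        _ = a * (a * y * a) * a := by group
        _ = a * y' * a := by rw [h1]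
        _ = a * ((a * b) * y * (a * b)) * a := rfl
        _ = (a * a) * b * y * (a * b) * a := by group
        _ = b * y * (b * a) * a := by rw [haa, one_mul, hab.eq]
        _ = b * y * b * (a * a) := by group
        _ = b * y * b := by rw [haa, mul_one]
    show y * b = b * y
    calc y * b = (b * y * b) * b := by rw [← h2]
      _ = b * y * (b * b) := by group
      _ = b * y := by rw [hbb, mul_one]
  have hc_ne_b : c ≠ b := by
    intro he
    apply hya
    have h1 : b * y * b = y' := by rw [← he]; exact hcy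
    have h2 : y = a * y * a := by
      calc y = (b * b) * y * (b * b) := by rw [hbb, one_mul, mul_one]
        _ = b * (b * y * b) * b := by group
        _ = b * y' * b := by rw [h1]
        _ = b * ((a * b) * y * (a * b)) * b := rfl
        _ = (b * a) * b * y * a * (b * b) := by group
        _ = (a * b) * b * y * a := by rw [hbb, mul_one, hab.eq]
        _ = a * (b * b) * y * a := by group
        _ = a * y * a := by rw [hbb, mul_one]
    show y * a = a * y
    calc y * a = (a * y * a) * a := by rw [← h2]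
      _ = a * y * (a * a) := by group
      _ = a * y := by rw [haa, mul_one]
  refine ⟨c, hcD, ?_, hca, hcb, hc_ne_a, hc_ne_b, hcy, ?_, ?_⟩
  · have hym : y ∈ Subgroup.closure ({y, z} : Set G) := Subgroup.subset_closure (by simp)
    have hzm : z ∈ Subgroup.closure ({y, z} : Set G) := Subgroup.subset_closure (by simp)
    have hy'm : y' ∈ Subgroup.closure ({y, z} : Set G) := mul_mem (mul_mem hzm hym) hzm
    exact mul_mem (pow_mem (mul_mem hym hy'm) _) hym
  · show z * c * y = y * (z * c)
    have hzc : z * c = c * z := hcz.eq.symm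
    have h1 : c * y * c = y' := hcy
    calc z * c * y = z * c * y * (c * c) := by rw [hcc, mul_one]
      _ = z * (c * y * c) * c := by group
      _ = z * y' * c := by rw [h1]
      _ = z * (z * y * z) * c := rfl
      _ = (z * z) * y * z * c := by group
      _ = y * (z * c) := by rw [hzz, one_mul]; group
  · intro hcomm
    apply h.triple_ne hp hp2 ha hb hy hab hne hya
    have e0 : c * y * c = y := by
      rw [hcomm.eq, mul_assoc, hcc, mul_one]
    have e1 : y' = y := hcy.symm.trans e0
    exact e1

end Cfsg.Agent.Lib.OddTransCore
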