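/-
S1617 (TRIPLE): the notion `VSys`, the triple subgroup, the quotient lemmas.
-/
import Mathlib
import Cfsg.Agent.Lib.OddTransCore.Core

set_option autoImplicit false

namespace Cfsg.Agent.Lib.OddTransCore

universe u

variable {G : Type u} [Group G] {p : ℕ} {D : Set G}

/-- `VSys p D`: `PS`, one class, generating, and `a ≠ b` commuting with `a b ∈ D`. -/
structure VSys (p : ℕ) (D : Set G) : Prop extends PS p D where
  cls : ∀ a ∈ D, ∀ b ∈ D, ∃ g : G, g * a * g⁻¹ = b
  gen : Subgroup.closure D = ⊤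
  v4 : ∃ a ∈ D, ∃ b ∈ D, a ≠ b ∧ Commute a b ∧ a * b ∈ D

/-- The class of `q` in the subgroup `H`, as a set of `H`. -/
def classIn (H : Subgroup G) (q : H) : Set H := {x | ∃ g : H, g * q * g⁻¹ = x}

lemma classIn_self (H : Subgroup G) (q : H) : q ∈ classIn H q := ⟨1, by group⟩

lemma classIn_val (h : PS p D) {H : Subgroup G} {q : H} (hq : (q : G) ∈ D) {x : H}
    (hx : x ∈ classIn H q) : (x : G) ∈ D := by
  obtain ⟨g, rfl⟩ := hx
  have := h.cl _ hq g
  simpa using this

/-- `classIn` satisfies `PS`. -/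
lemma PS.sub (h : PS p D) (H : Subgroup G) (q : H) (hq : (q : G) ∈ D) : PS p (classIn H q) where
  inv := by
    intro x hx
    have hmem := classIn_val h hq hx
    constructor
    · intro h1
      exact (h.inv _ hmem).1 (by rw [h1]; rfl)
    · apply Subtype.ext
      simpa using (h.inv _ hmem).2
  cl := by
    rintro x ⟨g, rfl⟩ k
    exact ⟨k * g, by group⟩
  dich := by
    intro x hx y hy
    rcases h.dich _ (classIn_val h hq hx) _ (classIn_val h hq hy) with hc | ho
    · left
      apply Subtype.ext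
      simpa using hc.eq
    · right
      rw [← Subgroup.orderOf_coe]
      simpa using ho

/-- Two noncommuting members of `D` in `H` are conjugate in `H`. -/
lemma PS.mem_classIn (h : PS p D) (hp : p.Prime) (hp2 : p ≠ 2) {H : Subgroup G} {x q : H}
    (hx : (x : G) ∈ D) (hq : (q : G) ∈ D) (hn : ¬ Commute (x : G) (q : G)) : x ∈ classIn H q := by
  have hord := (h.dich _ hx _ hq).resolve_left hn
  obtain ⟨hm, hmm⟩ := h.mid hp hp2 hx hq hord
  refine ⟨(x * q) ^ ((p - 1) / 2) * x, ?_⟩
  apply Subtype.ext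
  set m : G := ((x : G) * q) ^ ((p - 1) / 2) * x with hmdef
  have hval : (((x * q) ^ ((p - 1) / 2) * x : H) : G) = m := by simp [hmdef]
  have hmi : m⁻¹ = m := h.inv_eq hm
  have hm2 : m * m = 1 := (h.inv m hm).2
  have e1 : ((((x * q) ^ ((p - 1) / 2) * x) * q * ((x * q) ^ ((p - 1) / 2) * x)⁻¹ : H) : G)
      = m * q * m⁻¹ := by
    rw [Subgroup.coe_mul, Subgroup.coe_mul, Subgroup.coe_inv, hval]
  rw [e1, hmi, ← hmm]
  calc m * (m * (x : G) * m) * m = (m * m) * x * (m * m) := by group
    _ = x := by rw [hm2, one_mul, mul_one]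

/-- A generation criterion for `closure T`. -/
lemma gen_of_closure (T : Set G) (S : Set (Subgroup.closure T))
    (hS : ∀ x : Subgroup.closure T, (x : G) ∈ T → x ∈ S) : Subgroup.closure S = ⊤ := by
  rw [eq_top_iff, ← Subgroup.closure_closure_coe_preimage (k := T)]
  exact Subgroup.closure_mono (fun x hx => hS x hx)

/-- `vsys_triple`: `a ⊥ b`, `a ≠ b`, `a b ∈ D`, `q` commuting with neither:
`⟨a, b, q⟩` with the class of `q` in it is a `VSys`. -/
theorem PS.vsys_triple (h : PS p D) (hp : p.Prime) (hp2 : p ≠ 2) {a b q : G} (ha : a ∈ D)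
    (hb : b ∈ D) (hq : q ∈ D) (hab : Commute a b) (hne : a ≠ b) (habD : a * b ∈ D)
    (hqa : ¬ Commute q a) (hqb : ¬ Commute q b) :
    VSys p (classIn (Subgroup.closure ({a, b, q} : Set G))
      ⟨q, Subgroup.subset_closure (by simp)⟩) := by
  set T : Set G := {a, b, q} with hT
  set H := Subgroup.closure T with hH
  have haH : a ∈ H := Subgroup.subset_closure (by simp [hT])
  have hbH : b ∈ H := Subgroup.subset_closure (by simp [hT])
  have hqH : q ∈ H := Subgroup.subset_closure (by simp [hT])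
  have hqz : ¬ Commute q (a * b) := fun hc => hqa (h.lemmaA_left hp hp2 ha hb hq hab hne hc)
  have h1 : (⟨a, haH⟩ : H) ∈ classIn H ⟨q, hqH⟩ :=
    h.mem_classIn hp hp2 ha hq (fun hc => hqa hc.symm)
  have h2 : (⟨b, hbH⟩ : H) ∈ classIn H ⟨q, hqH⟩ :=
    h.mem_classIn hp hp2 hb hq (fun hc => hqb hc.symm)
  have h3 : ((⟨a, haH⟩ : H) * ⟨b, hbH⟩) ∈ classIn H ⟨q, hqH⟩ :=
    h.mem_classIn hp hp2 habD hq (fun hc => hqz hc.symm)
  refine { toPS := h.sub H ⟨q, hqH⟩ hq, cls := ?_, gen := ?_, v4 := ?_ }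
  · rintro x ⟨g, rfl⟩ y ⟨k, rfl⟩
    refine ⟨k * g⁻¹, by group⟩
  · apply gen_of_closure
    rintro x hx
    have hx' : (x : G) = a ∨ (x : G) = b ∨ (x : G) = q := by simpa [hT] using hx
    rcases hx' with e | e | e
    · have : x = ⟨a, haH⟩ := Subtype.ext e
      rw [this]; exact h1
    · have : x = ⟨b, hbH⟩ := Subtype.ext e
      rw [this]; exact h2
    · have : x = ⟨q, hqH⟩ := Subtype.ext e
      rw [this]; exact classIn_self _ _
  · refine ⟨⟨a, haH⟩, h1, ⟨b, hbH⟩, h2, ?_, ?_, h3⟩
    · intro e; exact hne (congrArg Subtype.val e)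
    · apply Subtype.ext
      simpa using hab.eq

/-- `PS` passes to a quotient when `N` misses `D`. -/
lemma PS.quot (h : PS p D) (hp : p.Prime) (N : Subgroup G) [N.Normal] (hN : ∀ d ∈ D, d ∉ N) :
    PS p ((QuotientGroup.mk' N) '' D) where
  inv := by
    rintro _ ⟨d, hd, rfl⟩
    constructor
    · intro h1
      exact hN d hd ((QuotientGroup.eq_one_iff d).1 h1)
    · rw [← map_mul, (h.inv d hd).2, map_one]
  cl := by
    rintro _ ⟨d, hd, rfl⟩ g
    obtain ⟨g', rfl⟩ := QuotientGroup.mk'_surjective N g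
    exact ⟨g' * d * g'⁻¹, h.cl d hd g', by simp⟩
  dich := by
    rintro _ ⟨a, ha, rfl⟩ _ ⟨b, hb, rfl⟩
    rcases h.dich a ha b hb with hc | ho
    · left
      exact hc.map _
    · have hdvd : orderOf (QuotientGroup.mk' N (a * b)) ∣ p := ho ▸ orderOf_map_dvd _ _
      rw [map_mul] at hdvd
      rcases (Nat.dvd_prime hp).1 hdvd with h1 | h1
      · left
        have h2 := orderOf_eq_one_iff.1 h1
        have h3 : QuotientGroup.mk' N b = (QuotientGroup.mk' N a)⁻¹ :=
          eq_inv_of_mul_eq_one_right h2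
        rw [h3]
        exact (Commute.refl _).inv_right
      · right; exact h1

/-- The image of a generating set under the quotient map generates. -/
lemma gen_quot (N : Subgroup G) [N.Normal] {D : Set G} (hg : Subgroup.closure D = ⊤) :
    Subgroup.closure ((QuotientGroup.mk' N) '' D) = ⊤ := by
  rw [← MonoidHom.map_closure, hg, ← MonoidHom.range_eq_map]
  exact MonoidHom.range_eq_top.2 (QuotientGroup.mk'_surjective N)

/-- One class passes to a quotient. -/
lemma cls_quot (N : Subgroup G) [N.Normal] {D : Set G}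
    (hc : ∀ a ∈ D, ∀ b ∈ D, ∃ g : G, g * a * g⁻¹ = b) :
    ∀ a ∈ (QuotientGroup.mk' N) '' D, ∀ b ∈ (QuotientGroup.mk' N) '' D,
      ∃ g : G ⧸ N, g * a * g⁻¹ = b := by
  rintro _ ⟨a, ha, rfl⟩ _ ⟨b, hb, rfl⟩
  obtain ⟨g, rfl⟩ := hc a ha b hb
  exact ⟨QuotientGroup.mk' N g, by simp⟩

/-- In a `VSys`, a normal subgroup holding a member of `D` holds all of them. -/
lemma VSys.mem_all (h : VSys p D) (N : Subgroup G) [hn : N.Normal] {x y : G} (hx : x ∈ D)
    (hy : y ∈ D) (hxN : x ∈ N) : y ∈ N := by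
  obtain ⟨g, rfl⟩ := h.cls x hx y hy
  exact hn.conj_mem x hxN g

/-- `vsys_quot`: `G ⧸ N` is a `VSys` when `a b ∉ N`. -/
theorem VSys.vsys_quot (h : VSys p D) (hp : p.Prime) (N : Subgroup G) [N.Normal] {a b : G}
    (ha : a ∈ D) (hb : b ∈ D) (hab : Commute a b) (habD : a * b ∈ D) (habN : a * b ∉ N) :
    VSys p ((QuotientGroup.mk' N) '' D) := by
  have hN : ∀ d ∈ D, d ∉ N := fun d hd hdN => habN (h.mem_all N hd habD hdN)
  refine { toPS := h.toPS.quot hp N hN, cls := cls_quot N h.cls, gen := gen_quot N h.gen, v4 := ?_ }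
  refine ⟨QuotientGroup.mk' N a, ⟨a, ha, rfl⟩, QuotientGroup.mk' N b, ⟨b, hb, rfl⟩, ?_, hab.map _,
    ⟨a * b, habD, map_mul _ _ _⟩⟩
  intro e
  have := QuotientGroup.eq.1 e
  rw [h.toPS.inv_eq ha] at this
  exact habN this

/-- TRIPLE, `δ = 0`. With `H = ⟨a, b, y⟩` there is `c ∈ D ∩ H` such that `e = a b c` is central in `H`,
and either `e = 1` and `(H, y^H)` is a `VSys`, or `e ≠ 1` and a normal subgroup `N ≠ ⊥` of `H`
(the one generated by `e`) has `H ⧸ N` a `VSys`. -/
theorem PS.triple_vsys (h : PS p D) (hp : p.Prime) (hp2 : p ≠ 2) {a b y : G} (ha : a ∈ D)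
    (hb : b ∈ D) (hy : y ∈ D) (hab : Commute a b) (hne : a ≠ b) (hya : ¬ Commute y a)
    (hyb : ¬ Commute y b) (hd0 : ¬ Commute y ((a * b) * y * (a * b))) :
    ∃ c ∈ D, c ∈ Subgroup.closure ({a, b, y} : Set G) ∧ Commute c a ∧ Commute c b ∧ c ≠ a ∧ c ≠ b ∧
      Commute (a * b * c) y ∧
      (a * b * c = 1 → VSys p (classIn (Subgroup.closure ({a, b, y} : Set G))
        ⟨y, Subgroup.subset_closure (by simp)⟩)) ∧
      (a * b * c ≠ 1 → ∃ (N : Subgroup (Subgroup.closure ({a, b, y} : Set G))) (_ : N.Normal),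
        N ≠ ⊥ ∧ (∀ x : Subgroup.closure ({a, b, y} : Set G), x ∈ N ↔ ((x : G) = 1 ∨ (x : G) = a * b * c)) ∧
        VSys p ((QuotientGroup.mk' N) '' classIn (Subgroup.closure ({a, b, y} : Set G))
          ⟨y, Subgroup.subset_closure (by simp)⟩)) := by
  obtain ⟨c, hc, hcm, hca, hcb, hcna, hcnb, hcy, hey, hncy⟩ := h.triple hp hp2 ha hb hy hab hne hya hyb hd0
  set T : Set G := {a, b, y} with hT
  set H := Subgroup.closure T with hH
  have haH : a ∈ H := Subgroup.subset_closure (by simp [hT])
  have hbH : b ∈ H := Subgroup.subset_closure (by simp [hT])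
  have hyH : y ∈ H := Subgroup.subset_closure (by simp [hT])
  have hcH : c ∈ H := by
    have hle : Subgroup.closure ({y, a * b} : Set G) ≤ H := by
      rw [Subgroup.closure_le]
      rintro x (rfl | rfl)
      · exact hyH
      · exact H.mul_mem haH hbH
    exact hle hcm
  have haa := (h.inv a ha).2
  have hbb := (h.inv b hb).2
  have hcc := (h.inv c hc).2
  set y₀ : H := ⟨y, hyH⟩ with hy₀
  have hS := h.sub H y₀ hy
  have h1 : (⟨a, haH⟩ : H) ∈ classIn H y₀ := h.mem_classIn hp hp2 ha hy (fun hc' => hya hc'.symm)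
  have h2 : (⟨b, hbH⟩ : H) ∈ classIn H y₀ := h.mem_classIn hp hp2 hb hy (fun hc' => hyb hc'.symm)
  have h3 : (⟨c, hcH⟩ : H) ∈ classIn H y₀ := h.mem_classIn hp hp2 hc hy hncy
  have hcls : ∀ u ∈ classIn H y₀, ∀ v ∈ classIn H y₀, ∃ g : H, g * u * g⁻¹ = v := by
    rintro x ⟨g, rfl⟩ z ⟨k, rfl⟩
    exact ⟨k * g⁻¹, by group⟩
  have hgen : Subgroup.closure (classIn H y₀) = ⊤ := by
    apply gen_of_closure
    rintro x hx
    have hx' : (x : G) = a ∨ (x : G) = b ∨ (x : G) = y := by simpa [hT] using hx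
    rcases hx' with e | e | e
    · have : x = ⟨a, haH⟩ := Subtype.ext e
      rw [this]; exact h1
    · have : x = ⟨b, hbH⟩ := Subtype.ext e
      rw [this]; exact h2
    · have : x = y₀ := Subtype.ext e
      rw [this]; exact classIn_self _ _
  refine ⟨c, hc, hcH, hca, hcb, hcna, hcnb, hey, ?_, ?_⟩
  · intro he
    refine { toPS := hS, cls := hcls, gen := hgen, v4 := ⟨⟨a, haH⟩, h1, ⟨b, hbH⟩, h2, ?_, ?_, ?_⟩ }
    · intro e; exact hne (congrArg Subtype.val e)
    · apply Subtype.ext
      simpa using hab.eq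
    · have e1 : a * b = c := by
        have : a * b = c⁻¹ := eq_inv_of_mul_eq_one_left he
        rw [this, h.inv_eq hc]
      have e2 : (⟨a, haH⟩ : H) * ⟨b, hbH⟩ = ⟨c, hcH⟩ := Subtype.ext (by simpa using e1)
      rw [e2]; exact h3
  · intro he
    -- `e` is central in `H`
    have hcomm_a : Commute (a * b * c) a :=
      ((Commute.refl a).mul_left hab.symm).mul_left hca
    have hcomm_b : Commute (a * b * c) b :=
      (hab.mul_left (Commute.refl b)).mul_left hcb
    have hcomm : ∀ x : H, Commute (a * b * c) (x : G) := by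
      rintro ⟨x, hx⟩
      have hle : H ≤ Subgroup.centralizer ({a * b * c} : Set G) := by
        rw [hH, Subgroup.closure_le]
        intro t ht
        have ht' : t = a ∨ t = b ∨ t = y := by simpa [hT] using ht
        rw [SetLike.mem_coe, Subgroup.mem_centralizer_singleton_iff]
        rcases ht' with rfl | rfl | rfl
        · exact hcomm_a.eq.symm
        · exact hcomm_b.eq.symm
        · exact hey.eq.symm
      have := hle hx
      rw [Subgroup.mem_centralizer_singleton_iff] at this
      exact this.symm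
    have hee : (a * b * c) * (a * b * c) = 1 := by
      have e1 : (a * b * c) * (a * b * c) = (a * b) * (a * b) * (c * c) := by
        have : c * (a * b) = (a * b) * c := (hca.mul_right hcb).eq
        calc (a * b * c) * (a * b * c) = a * b * (c * (a * b)) * c := by group
          _ = a * b * ((a * b) * c) * c := by rw [this]
          _ = (a * b) * (a * b) * (c * c) := by group
      rw [e1, hcc, mul_one]
      calc (a * b) * (a * b) = a * (b * a) * b := by group
        _ = a * (a * b) * b := by rw [hab.eq]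
        _ = (a * a) * (b * b) := by group
        _ = 1 := by rw [haa, hbb, one_mul]
    have heH : a * b * c ∈ H := H.mul_mem (H.mul_mem haH hbH) hcH
    set e₀ : H := ⟨a * b * c, heH⟩ with he₀
    have hz : ∀ x : H, Commute e₀ x := fun x => Subtype.ext (hcomm x).eq
    have hmemN : ∀ x : H, x ∈ Subgroup.zpowers e₀ ↔ ((x : G) = 1 ∨ (x : G) = a * b * c) := by
      intro x
      have he2 : e₀ * e₀ = 1 := Subtype.ext (by simpa [he₀] using hee)
      constructor
      · rintro ⟨k, rfl⟩
        rcases Int.even_or_odd' k with ⟨m, rfl | rfl⟩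
        · left
          have : e₀ ^ (2 * m) = 1 := by
            rw [zpow_mul, zpow_two, he2, one_zpow]
          show ((e₀ ^ (2 * m) : H) : G) = 1
          rw [this]; rfl
        · right
          have : e₀ ^ (2 * m + 1) = e₀ := by
            rw [zpow_add, zpow_mul, zpow_two, he2, one_zpow, one_mul, zpow_one]
          show ((e₀ ^ (2 * m + 1) : H) : G) = a * b * c
          rw [this]
      · rintro (e | e)
        · have : x = 1 := Subtype.ext e
          rw [this]; exact one_mem _
        · have : x = e₀ := Subtype.ext e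
          rw [this]; exact Subgroup.mem_zpowers _
    have hnorm : (Subgroup.zpowers e₀).Normal := by
      constructor
      intro x hx g
      obtain ⟨k, rfl⟩ := hx
      have : g * e₀ ^ k * g⁻¹ = e₀ ^ k := by
        have := ((hz g).zpow_left k).eq
        rw [← this]; group
      rw [this]
      exact Subgroup.zpow_mem_zpowers _ _
    have hNne : Subgroup.zpowers e₀ ≠ ⊥ := by
      intro e
      have : e₀ = 1 := by
        have hm := Subgroup.mem_zpowers e₀
        rw [e] at hm
        exact (Subgroup.mem_bot).1 hm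
      exact he (congrArg Subtype.val this)
    refine ⟨Subgroup.zpowers e₀, hnorm, hNne, hmemN, ?_⟩
    have hN : ∀ d ∈ classIn H y₀, d ∉ Subgroup.zpowers e₀ := by
      intro d hd hdN
      have hv := classIn_val h (q := y₀) hy hd
      rcases (hmemN d).1 hdN with e | e
      · exact (h.inv _ hv).1 e
      · -- `d` would be central; but `d` is conjugate to `y`
        obtain ⟨g, rfl⟩ := hd
        have hyz : y₀ = e₀ := by
          have e' : g * y₀ * g⁻¹ = e₀ := Subtype.ext e
          have : y₀ = g⁻¹ * e₀ * g := by rw [← e']; group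
          rw [this]
          have := (hz g).eq
          calc g⁻¹ * e₀ * g = g⁻¹ * (e₀ * g) := by group
            _ = g⁻¹ * (g * e₀) := by rw [this]
            _ = e₀ := by group
        have hyv : y = a * b * c := congrArg Subtype.val hyz
        exact hya (by rw [hyv]; exact hcomm_a)
    refine { toPS := hS.quot hp _ hN, cls := cls_quot _ hcls, gen := gen_quot _ hgen, v4 := ?_ }
    have habN : ((⟨a, haH⟩ : H) * ⟨b, hbH⟩) ∉ Subgroup.zpowers e₀ := by
      intro hm
      rcases (hmemN _).1 hm with e | e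
      · have e1 : a * b = 1 := by simpa using e
        have : a = b⁻¹ := eq_inv_of_mul_eq_one_left e1
        rw [h.inv_eq hb] at this
        exact hne this
      · have e1 : a * b = a * b * c := by simpa using e
        have : c = 1 := by simpa using e1.symm
        exact (h.inv c hc).1 this
    refine ⟨QuotientGroup.mk' _ ⟨a, haH⟩, ⟨_, h1, rfl⟩, QuotientGroup.mk' _ ⟨b, hbH⟩, ⟨_, h2, rfl⟩,
      ?_, ?_, ⟨⟨c, hcH⟩, h3, ?_⟩⟩
    · intro e
      have := QuotientGroup.eq.1 e
      have e3 : (⟨a, haH⟩ : H)⁻¹ = ⟨a, haH⟩ := by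
        apply Subtype.ext
        simpa using h.inv_eq ha
      rw [e3] at this
      exact habN this
    · have : Commute (⟨a, haH⟩ : H) ⟨b, hbH⟩ := Subtype.ext (by simpa using hab.eq)
      exact this.map _
    · rw [← map_mul]
      apply QuotientGroup.eq.2
      rw [(hmemN _)]
      right
      have hci : c⁻¹ = c := h.inv_eq hc
      have : a * b * c = c * (a * b) := (hca.mul_right hcb).eq.symm
      simp only [Subgroup.coe_mul, Subgroup.coe_inv, mul_inv_rev]
      rw [hci]
      exact this.symm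

/-- `delta_one` from `no_vsys`: -/
theorem PS.delta_one [Finite G] (nv : ∀ (G' : Type u) [Group G'] [Finite G'] (D' : Set G'), ¬ VSys p D')
    (h : PS p D) (hp : p.Prime) (hp2 : p ≠ 2) {a b y : G} (ha : a ∈ D)
    (hb : b ∈ D) (hy : y ∈ D) (hab : Commute a b) (hne : a ≠ b) (hya : ¬ Commute y a)
    (hyb : ¬ Commute y b) : Commute y ((a * b) * y * (a * b)) := by
  by_contra hd0
  obtain ⟨c, -, -, -, -, -, -, -, h1, h2⟩ := h.triple_vsys hp hp2 ha hb hy hab hne hya hyb hd0
  by_cases he : a * b * c = 1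
  · exact nv _ _ (h1 he)
  · obtain ⟨N, hN, -, -, hV⟩ := h2 he
    exact nv _ _ hV

end Cfsg.Agent.Lib.OddTransCore
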