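/-
S1617, THEOREM A: what the minimal counterexample gives (Reduce), the input of Block and Final
(helper70's paper proof, forum id 2293).
-/
import Cfsg.Agent.Lib.OddTransCore.VSys

set_option autoImplicit false

namespace Cfsg.Agent.Lib.OddTransCore

universe u

variable {G : Type u} [Group G] {p : ℕ} {D : Set G}

/-- What the minimal counterexample gives (Reduce), the input of Block and Final. -/
structure BHyp (p : ℕ) (D : Set G) : Prop extends VSys p D where
  simple : ∀ N : Subgroup G, N.Normal → N ≠ ⊥ → N = ⊤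
  /-- commuting is transitive on `D`. -/
  nbr : ∀ a ∈ D, ∀ d ∈ D, ∀ q ∈ D, Commute a d → Commute q a → Commute q d
  prod : ∀ a ∈ D, ∀ b ∈ D, a ≠ b → Commute a b → a * b ∈ D
  top3 : ∀ a ∈ D, ∀ b ∈ D, ∀ q ∈ D, a ≠ b → Commute a b → ¬ Commute q a →
    Subgroup.closure {a, b, q} = ⊤

end Cfsg.Agent.Lib.OddTransCore
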