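/-
S1617, BLOCKS, raw form (no structures from the stubs).  `D` a conjugation-closed set of involutions, two of its members
commute or have product of order `p`, `p` an odd prime; commuting is transitive on `D` (nbr), commuting distinct
members have product in `D` (prod).  Blocks: `Bl D x`, the commuting class of `x`.  `MM D x x'`: the members of `D`
moving the block of `x` to the block of `x'`.

Lemma Z enters as the hypothesis `hZ`: pass `Cfsg.Agent.Lib.OddTrans.LemmaZ.card_eq_prime_pow hp hp2` there.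
-/
import Mathlib
import Cfsg.Agent.Lib.OddTransCore.Core

set_option autoImplicit false
set_option linter.unusedVariables false
set_option linter.unusedSectionVars false

namespace Cfsg.Agent.Lib.OddTransCore.Block

variable {G : Type*} [Group G] {p : ℕ} {D : Set G}

/-- The hypotheses for BLOCKS. -/
structure BH (p : ℕ) (D : Set G) : Prop where
  ps : PS p D
  hp : p.Prime
  hp2 : p ≠ 2
  trans : ∀ a ∈ D, ∀ b ∈ D, ∀ c ∈ D, Commute a b → Commute b c → Commute a c
  prod : ∀ a ∈ D, ∀ b ∈ D, Commute a b → a ≠ b → a * b ∈ D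

/-- The block of `x`. -/
def Bl (D : Set G) (x : G) : Set G := {y | y ∈ D ∧ Commute x y}

/-- The members of `D` sending the block of `x` to the block of `x'`. -/
def MM (D : Set G) (x x' : G) : Set G := {d | d ∈ D ∧ Commute (d * x * d) x'}

lemma dd {d : G} (hd : d * d = 1) (z : G) : d * (d * z) = z := by rw [← mul_assoc, hd, one_mul]

lemma conj_mul {d : G} (hd : d * d = 1) (a b : G) : (d * a * d) * (d * b * d) = d * (a * b) * d := by
  simp only [mul_assoc]; rw [dd hd]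

lemma conj_comm {d a b : G} (hd : d * d = 1) (h : Commute a b) : Commute (d * a * d) (d * b * d) := by
  show _ = _
  rw [conj_mul hd, conj_mul hd, h.eq]

lemma conj_conj {d : G} (hd : d * d = 1) (a : G) : d * (d * a * d) * d = a := by
  simp only [mul_assoc]; rw [hd, mul_one]; exact dd hd a

lemma comm_of_conj {d a b : G} (hd : d * d = 1) (h : Commute (d * a * d) (d * b * d)) : Commute a b := by
  have := conj_comm hd h
  rwa [conj_conj hd, conj_conj hd] at this

namespace BH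

variable (H : BH p D)
include H

lemma mem_conj {d a : G} (hd : d ∈ D) (ha : a ∈ D) : d * a * d ∈ D := H.ps.conj' ha hd

lemma sq {d : G} (hd : d ∈ D) : d * d = 1 := (H.ps.inv d hd).2

/-- `no_swap`. -/
lemma comm_of_swap {a d : G} (hd : d ∈ D) (ha : a ∈ D) (h : Commute a (d * a * d)) : Commute a d := by
  by_contra hn
  exact H.ps.not_comm_swap H.hp H.hp2 ha hd hn h

lemma order_of_not_comm {a b : G} (ha : a ∈ D) (hb : b ∈ D) (h : ¬ Commute a b) : orderOf (a * b) = p :=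
  (H.ps.dich a ha b hb).resolve_left h

/-- `mid_unique`. -/
lemma mid_unique {d d' a : G} (hd : d ∈ D) (hd' : d' ∈ D) (ha : a ∈ D) (h : d * a * d = d' * a * d')
    (hn : ¬ Commute a d) : d = d' := by
  by_contra hne
  have hdd := H.sq hd
  have hdd' := H.sq hd'
  have hag : a * (d * d') = d * d' * a := by
    calc a * (d * d') = d * (d * a * d) * d' := by simp only [mul_assoc]; rw [dd hdd]
      _ = d * (d' * a * d') * d' := by rw [h]
      _ = d * d' * a := by simp only [mul_assoc]; rw [hdd', mul_one]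
  rcases H.ps.dich d hd d' hd' with hc | hord
  · exact hn (H.ps.lemmaA_left H.hp H.hp2 hd hd' ha hc hne hag)
  · -- `g = d d'`, `r = d a`
    have hgi : (d * d')⁻¹ = d' * d := by
      rw [mul_inv_rev, H.ps.inv_eq hd, H.ps.inv_eq hd']
    have hag' : a * (d' * d) = d' * d * a := by
      have : Commute a (d * d') := hag
      have h2 := this.inv_right
      rw [hgi] at h2
      exact h2
    have hrg : d * a * (d * d') = (d' * d) * (d * a) := by
      calc d * a * (d * d') = d * (a * (d * d')) := by rw [mul_assoc]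
        _ = d * (d * d' * a) := by rw [hag]
        _ = d' * a := by simp only [mul_assoc]; rw [dd hdd]
        _ = (d' * d) * (d * a) := by simp only [mul_assoc]; rw [dd hdd]
    have hrg' : d * a * (d' * d) = (d * d') * (d * a) := by
      calc d * a * (d' * d) = d * (a * (d' * d)) := by rw [mul_assoc]
        _ = d * (d' * d * a) := by rw [hag']
        _ = (d * d') * (d * a) := by simp only [mul_assoc]
    have h2 : Commute (d * a * (d * a)) (d * d') := by
      show d * a * (d * a) * (d * d') = d * d' * (d * a * (d * a))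
      rw [mul_assoc, hrg, ← mul_assoc, hrg', mul_assoc]
    have hord2 : orderOf (d * a) = p :=
      H.order_of_not_comm hd ha (fun hc => hn hc.symm)
    have hpp : (d * a) ^ p = 1 := by rw [← hord2]; exact pow_orderOf_eq_one _
    obtain ⟨k, hk⟩ := H.hp.odd_of_ne_two H.hp2
    have h3 : d * a = (d * a * (d * a)) ^ (k + 1) := by
      have h4 : (d * a * (d * a)) ^ (k + 1) = (d * a) ^ (p + 1) := by
        rw [← pow_two, ← pow_mul]; congr 1; omega
      rw [h4, pow_succ, hpp, one_mul]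
    have h5 : Commute (d * a) (d * d') := by
      rw [h3]
      exact h2.pow_left _
    have h6 : (d * d') * (d * a) = (d' * d) * (d * a) := by
      rw [← hrg, h5.eq]
    have h7 : d * d' = d' * d := mul_right_cancel h6
    -- so `d`, `d'` commute, contradiction with the order
    have h8 : Commute d d' := h7
    have h9 : (d * d') ^ 2 = 1 := by
      rw [h8.mul_pow, pow_two, pow_two, hdd, hdd', one_mul]
    have h10 := orderOf_dvd_of_pow_eq_one h9
    rw [hord] at h10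
    exact H.hp2 ((Nat.prime_dvd_prime_iff_eq H.hp Nat.prime_two).1 h10)

lemma exists_mid {a b : G} (ha : a ∈ D) (hb : b ∈ D) (hn : ¬ Commute a b) : ∃ m ∈ D, m * a * m = b := by
  have := H.ps.mid H.hp H.hp2 ha hb (H.order_of_not_comm ha hb hn)
  exact ⟨_, this.1, this.2⟩

lemma not_comm_of {x x' y y' : G} (hx : x ∈ D) (hx' : x' ∈ D) (hxx' : ¬ Commute x x') (hy : y ∈ Bl D x)
    (hy' : y' ∈ Bl D x') : ¬ Commute y y' := by
  intro h
  have h1 := H.trans x hx y hy.1 y' hy'.1 hy.2 h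
  exact hxx' (H.trans x hx y' hy'.1 x' hx' h1 hy'.2.symm)

lemma MM_symm {d x x' : G} (h : d ∈ MM D x x') : d ∈ MM D x' x := by
  refine ⟨h.1, ?_⟩
  have hdd := H.sq h.1
  have := conj_comm hdd h.2
  rw [conj_conj hdd] at this
  exact this.symm

lemma map_mem {d x x' y : G} (hx : x ∈ D) (hx' : x' ∈ D) (h : d ∈ MM D x x') (hy : y ∈ Bl D x) :
    d * y * d ∈ Bl D x' := by
  have hdd := H.sq h.1
  have hdy := H.mem_conj h.1 hy.1
  have hdx := H.mem_conj h.1 hx
  exact ⟨hdy, H.trans x' hx' _ hdx _ hdy h.2.symm (conj_comm hdd hy.2)⟩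

variable [Finite G]

/-- The count `|M| |Y| = |Y| |Y'|`. -/
lemma card_MM_mul {x x' : G} (hx : x ∈ D) (hx' : x' ∈ D) (hxx' : ¬ Commute x x') :
    Nat.card (MM D x x') * Nat.card (Bl D x) = Nat.card (Bl D x) * Nat.card (Bl D x') := by
  rw [← Nat.card_prod, ← Nat.card_prod]
  let f : (MM D x x') × (Bl D x) → (Bl D x) × (Bl D x') :=
    fun z => ⟨z.2, ⟨z.1.1 * z.2.1 * z.1.1, H.map_mem hx hx' z.1.2 z.2.2⟩⟩
  have hf : Function.Bijective f := by
    constructor
    · rintro ⟨⟨d, hd⟩, ⟨y, hy⟩⟩ ⟨⟨d', hd'⟩, ⟨y', hy'⟩⟩ h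
      have h1 : y = y' := congrArg (fun z => z.1.1) h
      subst h1
      have h2 : d * y * d = d' * y * d' := congrArg (fun z => z.2.1) h
      have hn : ¬ Commute y d := by
        intro hc
        have h3 : d * y * d = y := by
          rw [← hc.eq, mul_assoc, H.sq hd.1, mul_one]
        have h4 := H.map_mem hx hx' hd hy
        rw [h3] at h4
        exact H.not_comm_of hx hx' hxx' hy h4 (Commute.refl y)
      have := H.mid_unique hd.1 hd'.1 hy.1 h2 hn
      subst this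
      rfl
    · rintro ⟨⟨y, hy⟩, ⟨y', hy'⟩⟩
      obtain ⟨m, hm, hmy⟩ := H.exists_mid hy.1 hy'.1 (H.not_comm_of hx hx' hxx' hy hy')
      have hmM : m ∈ MM D x x' := by
        refine ⟨hm, ?_⟩
        have h1 := conj_comm (H.sq hm) hy.2
        rw [hmy] at h1
        exact H.trans _ (H.mem_conj hm hx) y' hy'.1 x' hx' h1 hy'.2.symm
      refine ⟨⟨⟨m, hmM⟩, ⟨y, hy⟩⟩, ?_⟩
      simp only [f, Prod.mk.injEq, Subtype.mk.injEq, true_and]
      exact hmy
  exact Nat.card_congr (Equiv.ofBijective f hf)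

lemma mem_Bl_self {x : G} (hx : x ∈ D) : x ∈ Bl D x := ⟨hx, Commute.refl x⟩

lemma card_Bl_pos {x : G} (hx : x ∈ D) : 0 < Nat.card (Bl D x) := by
  have : Nonempty (Bl D x) := ⟨⟨x, H.mem_Bl_self hx⟩⟩
  exact Nat.card_pos

lemma card_MM_eq {x x' : G} (hx : x ∈ D) (hx' : x' ∈ D) (hxx' : ¬ Commute x x') :
    Nat.card (MM D x x') = Nat.card (Bl D x') := by
  have := H.card_MM_mul hx hx' hxx'
  rw [mul_comm] at this
  exact Nat.eq_of_mul_eq_mul_left (H.card_Bl_pos hx) this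

lemma MM_eq_symm {x x' : G} : MM D x x' = MM D x' x := by
  ext d
  exact ⟨H.MM_symm, H.MM_symm⟩

lemma card_Bl_eq {x x' : G} (hx : x ∈ D) (hx' : x' ∈ D) (hxx' : ¬ Commute x x') :
    Nat.card (Bl D x) = Nat.card (Bl D x') := by
  rw [← H.card_MM_eq hx hx' hxx', H.MM_eq_symm]
  exact (H.card_MM_eq hx' hx (fun hc => hxx' hc.symm)).symm

end BH

/-- Arithmetic: `p^s + 1 = 2^n`, `3 ≤ p^s` force `s = 1`. -/
lemma arith_aux {p : ℕ} (hodd : Odd p) (t : ℕ) : ∃ c, Odd c ∧ p ^ (2 * t + 1) + 1 = (p + 1) * c := by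
  induction t with
  | zero => exact ⟨1, odd_one, by simp⟩
  | succ t ih =>
    obtain ⟨c, hc, h⟩ := ih
    obtain ⟨k, rfl⟩ := hodd
    refine ⟨(2 * k + 1) ^ 2 * c - 2 * k, ?_, ?_⟩
    · have h1 : 2 * k ≤ (2 * k + 1) ^ 2 * c := by
        obtain ⟨w, rfl⟩ := hc
        nlinarith
      have h2 : Odd ((2 * k + 1) ^ 2 * c) := (Odd.pow ⟨k, rfl⟩).mul hc
      obtain ⟨w, hw⟩ := h2
      exact ⟨w - k, by omega⟩
    · have h1 : 2 * k ≤ (2 * k + 1) ^ 2 * c := by
        obtain ⟨w, rfl⟩ := hc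
        nlinarith
      zify [h1] at h ⊢
      have : ((2 : ℤ) * k + 1) ^ (2 * (t + 1) + 1) = ((2 * k + 1) ^ (2 * t + 1)) * (2 * k + 1) ^ 2 := by ring
      rw [this]
      have h3 : ((2 : ℤ) * k + 1) ^ (2 * t + 1) = (2 * k + 1 + 1) * c - 1 := by linarith
      rw [h3]; ring

lemma arith {p s n : ℕ} (hp : p.Prime) (hp2 : p ≠ 2) (h : p ^ s + 1 = 2 ^ n) (h3 : 3 ≤ p ^ s) : s = 1 := by
  have hodd : Odd p := hp.odd_of_ne_two hp2
  have hn : 2 ≤ n := by
    by_contra hc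
    have : n = 0 ∨ n = 1 := by omega
    rcases this with rfl | rfl
    · rw [pow_zero] at h; omega
    · rw [pow_one] at h; omega
  obtain ⟨m, rfl⟩ : ∃ m, n = m + 2 := ⟨n - 2, by omega⟩
  have h4 : p ^ s + 1 = 4 * 2 ^ m := by rw [h]; ring
  rcases Nat.even_or_odd' s with ⟨t, rfl | rfl⟩
  · exfalso
    obtain ⟨v, hv⟩ := hodd.pow (n := t)
    have h5 : p ^ (2 * t) = (p ^ t) ^ 2 := by rw [mul_comm, pow_mul]
    rw [h5, hv] at h4
    have h6 : (2 * v + 1) ^ 2 = 4 * (v ^ 2 + v) + 1 := by ring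
    rw [h6] at h4
    omega
  · obtain ⟨c, hc, h5⟩ := arith_aux hodd t
    have h6 : c ∣ 2 ^ (m + 2) := ⟨p + 1, by rw [← h, h5]; ring⟩
    have h7 : c = 1 := by
      have hco : Nat.Coprime c (2 ^ (m + 2)) := Nat.Coprime.pow_right _ (Nat.coprime_two_right.mpr hc)
      exact Nat.Coprime.eq_one_of_dvd hco h6
    rw [h7, mul_one] at h5
    have h8 : p ^ (2 * t + 1) = p ^ 1 := by rw [pow_one]; omega
    exact Nat.pow_right_injective hp.two_le h8

namespace BH

variable (H : BH p D)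
include H

/-- `M` is pairwise noncommuting. -/
lemma MM_not_comm {x x' d₁ d₂ : G} (hx : x ∈ D) (hx' : x' ∈ D) (hxx' : ¬ Commute x x') (h₁ : d₁ ∈ MM D x x')
    (h₂ : d₂ ∈ MM D x x') (hne : d₁ ≠ d₂) : ¬ Commute d₁ d₂ := by
  intro hc
  have hd := H.prod d₁ h₁.1 d₂ h₂.1 hc hne
  have h11 := H.sq h₁.1
  -- `d = d₁ d₂` fixes the block of `x`
  have h3 : Commute (d₁ * (d₂ * x * d₂) * d₁) (d₁ * x' * d₁) := conj_comm h11 h₂.2
  have h4 : Commute (d₁ * x' * d₁) x := (H.MM_symm h₁).2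
  have h5 : Commute (d₁ * (d₂ * x * d₂) * d₁) x :=
    H.trans _ (H.mem_conj h₁.1 (H.mem_conj h₂.1 hx)) _ (H.mem_conj h₁.1 hx') x hx h3 h4
  have hdi : d₂ * d₁ = d₁ * d₂ := hc.eq.symm
  have h6 : (d₁ * d₂) * x * (d₁ * d₂) = d₁ * (d₂ * x * d₂) * d₁ := by
    calc (d₁ * d₂) * x * (d₁ * d₂) = (d₁ * d₂) * x * (d₂ * d₁) := by rw [hdi]
      _ = d₁ * (d₂ * x * d₂) * d₁ := by simp only [mul_assoc]
  rw [← h6] at h5
  have h7 : Commute x (d₁ * d₂) := H.comm_of_swap hd hx h5.symm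
  have h8 : Commute (d₁ * d₂) d₁ := (Commute.refl d₁).mul_left hc.symm
  have h9 : Commute x d₁ := H.trans x hx _ hd d₁ h₁.1 h7 h8
  have h10 : d₁ * x * d₁ = x := by
    rw [← h9.eq, mul_assoc, h11, mul_one]
  have h12 := h₁.2
  rw [h10] at h12
  exact hxx' h12

/-- `M` is closed under its own conjugation. -/
lemma MM_conj {x x' d₁ d₂ : G} (hx : x ∈ D) (hx' : x' ∈ D) (h₁ : d₁ ∈ MM D x x') (h₂ : d₂ ∈ MM D x x') :
    d₁ * d₂ * d₁ ∈ MM D x x' := by
  refine ⟨H.mem_conj h₁.1 h₂.1, ?_⟩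
  have h11 := H.sq h₁.1
  have h22 := H.sq h₂.1
  have e : d₁ * d₂ * d₁ * x * (d₁ * d₂ * d₁) = d₁ * (d₂ * (d₁ * x * d₁) * d₂) * d₁ := by
    simp only [mul_assoc]
  rw [e]
  have h3 : Commute (d₂ * (d₁ * x * d₁) * d₂) (d₂ * x' * d₂) := conj_comm h22 h₁.2
  have h4 : Commute (d₂ * x' * d₂) x := (H.MM_symm h₂).2
  have hm1 := H.mem_conj h₁.1 hx
  have hm2 := H.mem_conj h₂.1 hm1
  have h5 : Commute (d₂ * (d₁ * x * d₁) * d₂) x := H.trans _ hm2 _ (H.mem_conj h₂.1 hx') x hx h3 h4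
  have h6 : Commute (d₁ * (d₂ * (d₁ * x * d₁) * d₂) * d₁) (d₁ * x * d₁) := conj_comm h11 h5
  exact H.trans _ (H.mem_conj h₁.1 hm2) _ hm1 x' hx' h6 h₁.2

/-- The block with `1` is an elementary abelian subgroup. -/
def EE {x : G} (hx : x ∈ D) : Subgroup G where
  carrier := insert 1 (Bl D x)
  one_mem' := Or.inl rfl
  mul_mem' := by
    rintro a b (rfl | ha) (rfl | hb)
    · left; simp
    · rw [one_mul]; exact Or.inr hb
    · rw [mul_one]; exact Or.inr ha
    · by_cases hab : a = b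
      · left; subst hab; exact H.sq ha.1
      · right
        have hc : Commute a b := H.trans a ha.1 x hx b hb.1 ha.2.symm hb.2
        exact ⟨H.prod a ha.1 b hb.1 hc hab, ha.2.mul_right hb.2⟩
  inv_mem' := by
    rintro a (rfl | ha)
    · left; simp
    · rw [H.ps.inv_eq ha.1]; exact Or.inr ha

variable [Finite G]

lemma card_add_one {x : G} (hx : x ∈ D) : ∃ n, Nat.card (Bl D x) + 1 = 2 ^ n := by
  have hP : IsPGroup 2 (H.EE hx) := by
    rintro ⟨g, hg⟩
    refine ⟨1, ?_⟩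
    rcases hg with rfl | hg
    · ext; simp
    · ext
      simp only [pow_one, Subgroup.coe_pow, OneMemClass.coe_one, pow_two]
      exact H.sq hg.1
  have : Fact (Nat.Prime 2) := ⟨Nat.prime_two⟩
  obtain ⟨n, hn⟩ := (IsPGroup.iff_card).1 hP
  refine ⟨n, ?_⟩
  rw [← hn]
  have h1 : (1 : G) ∉ Bl D x := fun h => (H.ps.inv 1 h.1).1 rfl
  have h2 : Nat.card (H.EE hx) = Nat.card (insert (1 : G) (Bl D x) : Set G) := rfl
  rw [h2, Nat.card_coe_set_eq (insert (1 : G) (Bl D x)), Set.ncard_insert_of_notMem h1 (Set.toFinite _),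
    Nat.card_coe_set_eq (Bl D x)]

/-- `|Y| = p`.  Lemma Z enters here. -/
theorem card_Bl_p
    (hZ : ∀ M : Set G, M.Nonempty → (∀ a ∈ M, a ≠ 1 ∧ a * a = 1) → (∀ a ∈ M, ∀ b ∈ M, a * b * a ∈ M) →
      (∀ a ∈ M, ∀ b ∈ M, a ≠ b → orderOf (a * b) = p) → ∃ k : ℕ, Nat.card M = p ^ k)
    (hbig : ∀ x ∈ D, ∃ y ∈ D, Commute x y ∧ x ≠ y) {x x' : G} (hx : x ∈ D) (hx' : x' ∈ D) (hxx' : ¬ Commute x x') :
    Nat.card (Bl D x') = p := by
  obtain ⟨m, hm, -⟩ := H.exists_mid hx hx' hxx'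
  have hne : (MM D x x').Nonempty := by
    obtain ⟨m, hm, hmy⟩ := H.exists_mid hx hx' hxx'
    exact ⟨m, hm, by rw [hmy]⟩
  obtain ⟨s, hs⟩ := hZ (MM D x x') hne (fun a ha => H.ps.inv a ha.1) (fun a ha b hb => H.MM_conj hx hx' ha hb)
    (fun a ha b hb hab => H.order_of_not_comm ha.1 hb.1 (H.MM_not_comm hx hx' hxx' ha hb hab))
  rw [H.card_MM_eq hx hx' hxx'] at hs
  obtain ⟨n, hn⟩ := H.card_add_one hx'
  obtain ⟨y, hy, hcy, hney⟩ := hbig x' hx'
  have h2 : 1 < Nat.card (Bl D x') := by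
    rw [Finite.one_lt_card_iff_nontrivial]
    exact ⟨⟨⟨x', H.mem_Bl_self hx'⟩, ⟨y, hy, hcy⟩, fun h => hney (congrArg Subtype.val h)⟩⟩
  have h3 : 3 ≤ Nat.card (Bl D x') := by
    by_contra hc
    have h4 : Nat.card (Bl D x') = 2 := by omega
    rw [h4] at hn
    have h5 : n = 0 ∨ n = 1 ∨ 2 ≤ n := by omega
    rcases h5 with rfl | rfl | h5
    · simp at hn
    · simp at hn
    · obtain ⟨m, rfl⟩ : ∃ m, n = m + 2 := ⟨n - 2, by omega⟩
      rw [pow_add] at hn
      omega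
  rw [hs] at hn h3
  have := arith H.hp H.hp2 hn h3
  subst this
  rw [hs, pow_one]

/-- Lines. -/
lemma line_mem {x x' d₁ d₂ : G} (hx : x ∈ D) (hx' : x' ∈ D) (h₁ : d₁ ∈ MM D x x') (h₂ : d₂ ∈ MM D x x') (i : ℕ) :
    (d₁ * d₂) ^ i * d₁ ∈ MM D x x' := by
  have key : ∀ i : ℕ, (d₁ * d₂) ^ i * d₁ ∈ MM D x x' ∧ (d₁ * d₂) ^ (i + 1) * d₁ ∈ MM D x x' := by
    intro i
    induction i with
    | zero =>
      refine ⟨by simpa using h₁, ?_⟩
      simpa using H.MM_conj hx hx' h₁ h₂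
    | succ i ih =>
      refine ⟨ih.2, ?_⟩
      have e : (d₁ * d₂) ^ (i + 1 + 1) * d₁ = d₁ * (d₂ * ((d₁ * d₂) ^ i * d₁) * d₂) * d₁ := by
        rw [show i + 1 + 1 = 1 + i + 1 by omega, pow_succ, pow_add, pow_one]
        simp only [mul_assoc]
      rw [e]
      exact H.MM_conj hx hx' h₁ (H.MM_conj hx hx' h₂ ih.1)
  exact (key i).1

/-- `M` is the line through any two of its points. -/
theorem MM_line {x x' d₁ d₂ : G} (hcard : Nat.card (MM D x x') = p) (hx : x ∈ D) (hx' : x' ∈ D)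
    (hxx' : ¬ Commute x x') (h₁ : d₁ ∈ MM D x x') (h₂ : d₂ ∈ MM D x x') (hne : d₁ ≠ d₂) {d : G}
    (hd : d ∈ MM D x x') : ∃ i < p, d = (d₁ * d₂) ^ i * d₁ := by
  have hord : orderOf (d₁ * d₂) = p :=
    H.order_of_not_comm h₁.1 h₂.1 (H.MM_not_comm hx hx' hxx' h₁ h₂ hne)
  let φ : Fin p → MM D x x' := fun i => ⟨(d₁ * d₂) ^ (i : ℕ) * d₁, H.line_mem hx hx' h₁ h₂ i⟩
  have hinj : Function.Injective φ := by
    intro i j hij
    have h1 : (d₁ * d₂) ^ (i : ℕ) * d₁ = (d₁ * d₂) ^ (j : ℕ) * d₁ := congrArg Subtype.val hij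
    have h2 := mul_right_cancel h1
    have h3 : (i : ℕ) = j := pow_injOn_Iio_orderOf (x := d₁ * d₂)
      (by rw [Set.mem_Iio, hord]; exact i.2) (by rw [Set.mem_Iio, hord]; exact j.2) h2
    exact Fin.ext h3
  have hbij : Function.Bijective φ := hinj.bijective_of_nat_card_le (by rw [hcard]; simp)
  obtain ⟨i, hi⟩ := hbij.2 ⟨d, hd⟩
  exact ⟨i, i.2, (congrArg Subtype.val hi).symm⟩

/-- Double counting: a member of `D` off the block of `x` in no `M(Y, xY)`. -/
theorem exists_good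
    (hZ : ∀ M : Set G, M.Nonempty → (∀ a ∈ M, a ≠ 1 ∧ a * a = 1) → (∀ a ∈ M, ∀ b ∈ M, a * b * a ∈ M) →
      (∀ a ∈ M, ∀ b ∈ M, a ≠ b → orderOf (a * b) = p) → ∃ k : ℕ, Nat.card M = p ^ k)
    (hbig : ∀ x ∈ D, ∃ y ∈ D, Commute x y ∧ x ≠ y) {x : G} (hx : x ∈ D) (hA : ∃ y ∈ D, ¬ Commute x y) :
    ∃ d ∈ D, ¬ Commute x d ∧ ∀ y ∈ D, ¬ Commute x y → d ∉ MM D y (x * y * x) := by
  classical
  by_contra hcon
  push Not at hcon
  let A : Finset G := (Set.toFinite {y | y ∈ D ∧ ¬ Commute x y}).toFinset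
  have hA' : ∀ y, y ∈ A ↔ y ∈ D ∧ ¬ Commute x y := by intro y; simp [A]
  let R : G → G → Prop := fun d y => d ∈ MM D y (x * y * x)
  have key := Finset.sum_card_bipartiteAbove_eq_sum_card_bipartiteBelow (s := A) (t := A) R
  have low : ∀ d ∈ A, p ≤ (A.bipartiteAbove R d).card := by
    intro d hd
    obtain ⟨hdD, hdn⟩ := (hA' d).1 hd
    obtain ⟨y₀, hy₀, hxy₀, hdM⟩ := hcon d hdD hdn
    have hcard : (Set.toFinite (Bl D y₀)).toFinset.card = p := by
      rw [← Set.ncard_eq_toFinset_card, ← Nat.card_coe_set_eq]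
      exact H.card_Bl_p hZ hbig hx hy₀ hxy₀
    rw [← hcard]
    apply Finset.card_le_card
    intro y hy
    have hy' : y ∈ Bl D y₀ := by simpa using hy
    rw [Finset.mem_bipartiteAbove]
    refine ⟨(hA' y).2 ⟨hy'.1, ?_⟩, hdD, ?_⟩
    · intro hc
      exact hxy₀ (H.trans x hx y hy'.1 y₀ hy₀ hc hy'.2.symm)
    · have c1 : Commute (d * y * d) (d * y₀ * d) := conj_comm (H.sq hdD) hy'.2.symm
      have c2 : Commute (d * y₀ * d) (x * y₀ * x) := hdM.2
      have c3 : Commute (x * y₀ * x) (x * y * x) := conj_comm (H.sq hx) hy'.2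
      have m1 := H.mem_conj hdD hy'.1
      have m2 := H.mem_conj hdD hy₀
      have m3 := H.mem_conj hx hy₀
      have m4 := H.mem_conj hx hy'.1
      exact H.trans _ m1 _ m3 _ m4 (H.trans _ m1 _ m2 _ m3 c1 c2) c3
  have up : ∀ y ∈ A, (A.bipartiteBelow R y).card ≤ p - 1 := by
    intro y hy
    obtain ⟨hyD, hyn⟩ := (hA' y).1 hy
    have hnc : ¬ Commute y (x * y * x) := fun hc => hyn (H.comm_of_swap hx hyD hc).symm
    have hcard : Nat.card (MM D y (x * y * x)) = p := by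
      rw [H.card_MM_eq hyD (H.mem_conj hx hyD) hnc]
      exact H.card_Bl_p hZ hbig hyD (H.mem_conj hx hyD) hnc
    have hcard' : (Set.toFinite (MM D y (x * y * x))).toFinset.card = p := by
      rw [← Set.ncard_eq_toFinset_card, ← Nat.card_coe_set_eq]; exact hcard
    have hxM : x ∈ MM D y (x * y * x) := ⟨hx, Commute.refl _⟩
    have hsub : (A.bipartiteBelow R y) ⊆ ((Set.toFinite (MM D y (x * y * x))).toFinset.erase x) := by
      intro d hd
      rw [Finset.mem_bipartiteBelow] at hd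
      rw [Finset.mem_erase]
      refine ⟨?_, by simpa using hd.2⟩
      rintro rfl
      exact ((hA' _).1 hd.1).2 (Commute.refl _)
    calc _ ≤ _ := Finset.card_le_card hsub
      _ = p - 1 := by rw [Finset.card_erase_of_mem (by simpa using hxM), hcard']
  have hAne : A.Nonempty := by
    obtain ⟨y, hy, hn⟩ := hA
    exact ⟨y, (hA' y).2 ⟨hy, hn⟩⟩
  have h1 := Finset.card_nsmul_le_sum A _ p low
  have h2 := Finset.sum_le_card_nsmul A _ (p - 1) up
  rw [key] at h1
  have h3 := le_trans h1 h2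
  simp only [smul_eq_mul] at h3
  have h4 := Nat.le_of_mul_le_mul_left h3 (Finset.card_pos.2 hAne)
  have := H.hp.pos
  omega

end BH

/-- The type of blocks. -/
def Blocks (D : Set G) : Type _ := {Y : Set G // ∃ x ∈ D, Y = Bl D x}

instance [Finite G] : Finite (Blocks D) := by
  unfold Blocks; infer_instance

/-- Conjugate of a set. -/
def cI (g : G) (Y : Set G) : Set G := {y | g⁻¹ * y * g ∈ Y}

lemma cI_one (Y : Set G) : cI 1 Y = Y := by
  ext y; simp [cI]

lemma cI_mul (g h : G) (Y : Set G) : cI (g * h) Y = cI g (cI h Y) := by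
  ext y; simp [cI, mul_assoc]

lemma comm_conj {a b : G} (h : Commute a b) (g : G) : Commute (g * a * g⁻¹) (g * b * g⁻¹) := by
  have := h.map (MulAut.conj g).toMonoidHom
  simpa [MulAut.conj_apply] using this

namespace BH

variable (H : BH p D)
include H

lemma cI_Bl (g x : G) : cI g (Bl D x) = Bl D (g * x * g⁻¹) := by
  ext y
  constructor
  · rintro ⟨hy, hc⟩
    have h1 := H.ps.cl _ hy g
    have h2 := comm_conj hc g
    have e : g * (g⁻¹ * y * g) * g⁻¹ = y := by group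
    rw [e] at h1 h2
    exact ⟨h1, h2⟩
  · rintro ⟨hy, hc⟩
    have h1 := H.ps.cl _ hy g⁻¹
    have h2 := comm_conj hc g⁻¹
    have e : g⁻¹ * (g * x * g⁻¹) * g⁻¹⁻¹ = x := by group
    rw [e] at h2
    have e2 : g⁻¹ * y * g⁻¹⁻¹ = g⁻¹ * y * g := by group
    rw [e2] at h1 h2
    exact ⟨h1, h2⟩

/-- Conjugation on blocks. -/
def act (r : G) : Function.End (Blocks D) := fun Y =>
  ⟨cI r Y.1, by
    obtain ⟨x, hx, hY⟩ := Y.2
    exact ⟨r * x * r⁻¹, H.ps.cl x hx r, by rw [hY, H.cI_Bl]⟩⟩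

lemma act_pow (r : G) (n : ℕ) (Y : Blocks D) : ((H.act r ^ n) Y).1 = cI (r ^ n) Y.1 := by
  induction n with
  | zero =>
    rw [pow_zero, pow_zero, cI_one]
    rfl
  | succ n ih =>
    rw [pow_succ', pow_succ', cI_mul, ← ih]
    rfl

variable [Finite G]

/-- `p` divides the number of blocks. -/
theorem p_dvd_blocks
    (hZ : ∀ M : Set G, M.Nonempty → (∀ a ∈ M, a ≠ 1 ∧ a * a = 1) → (∀ a ∈ M, ∀ b ∈ M, a * b * a ∈ M) →
      (∀ a ∈ M, ∀ b ∈ M, a ≠ b → orderOf (a * b) = p) → ∃ k : ℕ, Nat.card M = p ^ k)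
    (hbig : ∀ x ∈ D, ∃ y ∈ D, Commute x y ∧ x ≠ y) {x : G} (hx : x ∈ D) (hA : ∃ y ∈ D, ¬ Commute x y) :
    p ∣ Nat.card (Blocks D) := by
  classical
  obtain ⟨d, hd, hdn, hgood⟩ := H.exists_good hZ hbig hx hA
  have hord : orderOf (d * x) = p := H.order_of_not_comm hd hx (fun hc => hdn hc.symm)
  have hrp : (d * x) ^ p = 1 := by rw [← hord]; exact pow_orderOf_eq_one _
  have : Fact p.Prime := ⟨H.hp⟩
  haveI : Fintype (Blocks D) := Fintype.ofFinite _
  have hf : (H.act (d * x)) ^ p ^ 1 = 1 := by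
    rw [pow_one]
    funext Y
    apply Subtype.ext
    rw [H.act_pow, hrp, cI_one]
    rfl
  have hmod := Equiv.Perm.card_fixedPoints_modEq hf
  have hfix : IsEmpty (Function.fixedPoints (H.act (d * x))) := by
    constructor
    rintro ⟨⟨Y, y, hy, rfl⟩, hY⟩
    have h1 : cI (d * x) (Bl D y) = Bl D y := congrArg Subtype.val hY
    rw [H.cI_Bl] at h1
    have hdd := H.sq hd
    have hxx := H.sq hx
    have e : (d * x) * y * (d * x)⁻¹ = d * (x * y * x) * d := by
      rw [mul_inv_rev, H.ps.inv_eq hd, H.ps.inv_eq hx]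
      simp only [mul_assoc]
    rw [e] at h1
    have hm : d * (x * y * x) * d ∈ Bl D y := by
      rw [← h1]
      exact ⟨H.mem_conj hd (H.mem_conj hx hy), Commute.refl _⟩
    have h2 := conj_comm hdd hm.2
    rw [conj_conj hdd] at h2
    by_cases hxy : Commute x y
    · have e2 : x * y * x = y := by
        rw [hxy.eq, mul_assoc, hxx, mul_one]
      rw [e2] at h2
      have h3 := H.comm_of_swap hd hy h2.symm
      exact hdn (H.trans x hx y hy d hd hxy h3)
    · exact hgood y hy hxy ⟨hd, h2⟩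
  have h0 : ∀ (inst : Fintype (Function.fixedPoints (H.act (d * x)))), @Fintype.card _ inst = 0 :=
    fun _ => Fintype.card_eq_zero
  rw [h0] at hmod
  rw [Nat.card_eq_fintype_card]
  exact (Nat.modEq_zero_iff_dvd).1 hmod

end BH

end Cfsg.Agent.Lib.OddTransCore.Block
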