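/-
S1617, FINAL, abstract core: `B` a `G`-set, the members of `D` acting on it as on the blocks.  Take a `p`-subgroup `W` of maximal
order fixing a point; `F` its fixed points; the lines between members of `F` normalise `W`, and their union has
`p`-power size `p (|F| - 1)` by Lemma Z, against `p ∣ |F|`.
-/
import Mathlib

set_option autoImplicit false
set_option linter.unusedVariables false
set_option linter.unusedSectionVars false

namespace Cfsg.Agent.Lib.OddTransCore.FinalCore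

open Subgroup

variable {G : Type*} [Group G] [Finite G]

/-- Products of two points on a line lie in the cyclic group of the line. -/
theorem line_mul_mem {a b c c' : G} (ha : a * a = 1) (hb : b * b = 1)
    (hc : ∃ i : ℤ, c = (a * b) ^ i * a) (hc' : ∃ j : ℤ, c' = (a * b) ^ j * a) :
    c * c' ∈ zpowers (a * b) := by
  obtain ⟨i, rfl⟩ := hc
  obtain ⟨j, rfl⟩ := hc'
  have ha' : a⁻¹ = a := inv_eq_of_mul_eq_one_left ha
  have hb' : b⁻¹ = b := inv_eq_of_mul_eq_one_left hb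
  have h1 : a * (a * b) * a⁻¹ = (a * b)⁻¹ := by
    rw [mul_inv_rev, ha', hb']
    calc a * (a * b) * a = (a * a) * b * a := by group
      _ = b * a := by rw [ha, one_mul]
  have h2 : a * (a * b) ^ j * a⁻¹ = ((a * b)⁻¹) ^ j := by
    rw [← h1, conj_zpow]
  have h3 : (a * b) ^ i * a * ((a * b) ^ j * a) = (a * b) ^ i * (a * (a * b) ^ j * a⁻¹) := by
    rw [ha']; group
  rw [h3, h2]
  exact Subgroup.mul_mem _ (Subgroup.zpow_mem _ (mem_zpowers _) _)
    (Subgroup.zpow_mem _ (Subgroup.inv_mem _ (mem_zpowers _)) _)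

theorem final_core {p : ℕ} (hp : p.Prime) (hp2 : p ≠ 2)
    {D : Set G} (hD : ∀ d ∈ D, d ≠ 1 ∧ d * d = 1)
    (hDc : ∀ g : G, ∀ d ∈ D, g * d * g⁻¹ ∈ D)
    {B : Type*} [Finite B] [Nonempty B] [MulAction G B]
    (hpB : p ∣ Nat.card B)
    (hfix : ∀ Y : B, ∀ a ∈ D, ∀ b ∈ D, a • Y = Y → b • Y = Y → Commute a b)
    (hcard : ∀ Y Y' : B, Y ≠ Y' → Nat.card {d : G // d ∈ D ∧ d • Y = Y'} = p)
    (hnc : ∀ Y Y' : B, Y ≠ Y' → ∀ a b : G, (a ∈ D ∧ a • Y = Y') → (b ∈ D ∧ b • Y = Y') →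
      a ≠ b → ¬ Commute a b)
    (hline : ∀ Y Y' : B, Y ≠ Y' → ∀ a b c : G, (a ∈ D ∧ a • Y = Y') → (b ∈ D ∧ b • Y = Y') →
      (c ∈ D ∧ c • Y = Y') → a ≠ b → ∃ i : ℤ, c = (a * b) ^ i * a)
    (hord : ∀ a ∈ D, ∀ b ∈ D, ¬ Commute a b → orderOf (a * b) = p)
    (htop3 : ∀ a ∈ D, ∀ b ∈ D, ∀ q ∈ D, Commute a b → a ≠ b → ¬ Commute q a →
      closure {a, b, q} = ⊤)
    (hsimple : ∀ N : Subgroup G, N.Normal → N ≠ ⊥ → N = ⊤)
    (hZ : ∀ M : Set G, M.Nonempty → (∀ a ∈ M, a ≠ 1 ∧ a * a = 1) → (∀ a ∈ M, ∀ b ∈ M, a * b * a ∈ M) →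
      (∀ a ∈ M, ∀ b ∈ M, a ≠ b → orderOf (a * b) = p) → ∃ k : ℕ, Nat.card M = p ^ k) : False := by
  classical
  haveI : Fact p.Prime := ⟨hp⟩
  have hp3 : 3 ≤ p := by
    have := hp.two_le
    omega
  -- maximal `W`
  obtain ⟨W, ⟨hWp, Ywit, hWY⟩, hWmax⟩ := Set.exists_max_image
    {W : Subgroup G | IsPGroup p W ∧ ∃ Y : B, ∀ g ∈ W, g • Y = Y}
    (fun W => Nat.card W) (Set.toFinite _)
    ⟨⊥, IsPGroup.of_bot, Classical.arbitrary B, by
      intro g hg
      rw [Subgroup.mem_bot] at hg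
      rw [hg, one_smul]⟩
  -- involutions act as involutions
  have inv_smul : ∀ d ∈ D, ∀ Y : B, d • d • Y = Y := by
    intro d hd Y
    rw [← mul_smul, (hD d hd).2, one_smul]
  have dinv : ∀ d ∈ D, d⁻¹ = d := fun d hd => inv_eq_of_mul_eq_one_left (hD d hd).2
  -- fixed blocks
  let F : Set B := {Y | ∀ g ∈ W, g • Y = Y}
  have hFne : Ywit ∈ F := hWY
  have hFcard : p ∣ Nat.card F := by
    have h1 := IsPGroup.card_modEq_card_fixedPoints (p := p) (G := W) hWp B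
    have h2 : p ∣ Nat.card (MulAction.fixedPoints W B) := by
      have := (Nat.modEq_zero_iff_dvd.mpr hpB).symm.trans h1
      exact (Nat.modEq_zero_iff_dvd.mp this.symm)
    have h3 : (MulAction.fixedPoints W B) = F := by
      ext Y
      simp only [MulAction.mem_fixedPoints, F, Set.mem_setOf_eq, Subtype.forall, Subgroup.smul_def,
        Subgroup.mk_smul]
    rwa [h3] at h2
  have hFpos : 0 < Nat.card F := by
    haveI : Nonempty F := ⟨⟨Ywit, hFne⟩⟩
    exact Nat.card_pos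
  have hFge : p ≤ Nat.card F := Nat.le_of_dvd hFpos hFcard
  -- W acts on the lines between fixed blocks
  have W_line : ∀ Y₁ ∈ F, ∀ Y₂ ∈ F, ∀ g ∈ W, ∀ a : G, (a ∈ D ∧ a • Y₁ = Y₂) →
      ((g * a * g⁻¹) ∈ D ∧ (g * a * g⁻¹) • Y₁ = Y₂) := by
    intro Y₁ h₁ Y₂ h₂ g hg a ⟨ha, ha'⟩
    refine ⟨hDc g a ha, ?_⟩
    have hg' : g⁻¹ • Y₁ = Y₁ := h₁ _ (W.inv_mem hg)
    rw [mul_smul, mul_smul, hg', ha', h₂ g hg]
  -- two points of a line
  have two_pts : ∀ Y₁ Y₂ : B, Y₁ ≠ Y₂ → ∀ a : G, (a ∈ D ∧ a • Y₁ = Y₂) →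
      ∃ b : G, (b ∈ D ∧ b • Y₁ = Y₂) ∧ b ≠ a := by
    intro Y₁ Y₂ hne a ha
    by_contra hcon
    push_neg at hcon
    have : Nat.card {d : G // d ∈ D ∧ d • Y₁ = Y₂} = 1 := by
      rw [Nat.card_eq_one_iff_unique]
      refine ⟨⟨?_⟩, ⟨⟨a, ha⟩⟩⟩
      rintro ⟨x, hx⟩ ⟨y, hy⟩
      exact Subtype.ext ((hcon x hx).trans (hcon y hy).symm)
    have h' := hcard Y₁ Y₂ hne
    omega
  -- products lie in W
  have prod_mem : ∀ Y₁ ∈ F, ∀ Y₂ ∈ F, Y₁ ≠ Y₂ → ∀ a b : G, (a ∈ D ∧ a • Y₁ = Y₂) →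
      (b ∈ D ∧ b • Y₁ = Y₂) → a * b ∈ W := by
    intro Y₁ h₁ Y₂ h₂ hne a b ha hb
    by_cases hab : a = b
    · subst hab
      rw [(hD a ha.1).2]
      exact W.one_mem
    have hncab := hnc Y₁ Y₂ hne a b ha hb hab
    have hordab := hord a ha.1 b hb.1 hncab
    have hPp : IsPGroup p (zpowers (a * b)) := by
      apply IsPGroup.of_card (n := 1)
      rw [Nat.card_zpowers, hordab, pow_one]
    have hWN : W ≤ Subgroup.normalizer ((zpowers (a * b) : Subgroup G) : Set G) := by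
      intro g hg
      rw [Subgroup.mem_normalizer_iff'']
      -- it suffices to work in the finite group
      intro h
      have key : ∀ g ∈ W, ∀ h ∈ zpowers (a * b), g * h * g⁻¹ ∈ zpowers (a * b) := by
        intro g hg h hh
        obtain ⟨i, rfl⟩ := hh
        simp only
        rw [← conj_zpow]
        apply Subgroup.zpow_mem
        have e : g * (a * b) * g⁻¹ = (g * a * g⁻¹) * (g * b * g⁻¹) := by group
        rw [e]
        exact line_mul_mem (hD a ha.1).2 (hD b hb.1).2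
          (hline Y₁ Y₂ hne a b _ ha hb (W_line Y₁ h₁ Y₂ h₂ g hg a ha) hab)
          (hline Y₁ Y₂ hne a b _ ha hb (W_line Y₁ h₁ Y₂ h₂ g hg b hb) hab)
      constructor
      · intro hh
        have := key g⁻¹ (W.inv_mem hg) h hh
        simpa using this
      · intro hh
        have := key g hg _ hh
        simpa [mul_assoc] using this
    have hSp : IsPGroup p (W ⊔ zpowers (a * b) : Subgroup G) :=
      IsPGroup.to_sup_of_normal_right' hWp hPp hWN
    have hSfix : ∀ g ∈ (W ⊔ zpowers (a * b) : Subgroup G), g • Y₁ = Y₁ := by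
      have hle : (W ⊔ zpowers (a * b) : Subgroup G) ≤ MulAction.stabilizer G Y₁ := by
        apply sup_le
        · intro g hg
          exact h₁ g hg
        · rw [zpowers_le, MulAction.mem_stabilizer_iff, mul_smul, hb.2]
          have := inv_smul a ha.1 Y₁
          rwa [ha.2] at this
      intro g hg
      exact hle hg
    have hc := hWmax _ ⟨hSp, Y₁, hSfix⟩
    have heq : W = W ⊔ zpowers (a * b) := Subgroup.eq_of_le_of_card_ge le_sup_left hc
    have : a * b ∈ W ⊔ zpowers (a * b) :=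
      (le_sup_right : zpowers (a * b) ≤ W ⊔ zpowers (a * b)) (mem_zpowers _)
    rwa [← heq] at this
  -- line points normalise W
  have conj_mem : ∀ Y₁ ∈ F, ∀ Y₂ ∈ F, Y₁ ≠ Y₂ → ∀ d : G, (d ∈ D ∧ d • Y₁ = Y₂) →
      ∀ g ∈ W, d * g * d ∈ W := by
    intro Y₁ h₁ Y₂ h₂ hne d hd g hg
    have h1 := prod_mem Y₁ h₁ Y₂ h₂ hne d _ hd (W_line Y₁ h₁ Y₂ h₂ g hg d hd)
    have e : d * g * d = d * (g * d * g⁻¹) * g := by group
    rw [e]
    exact W.mul_mem h1 hg
  -- N₀
  let N₀ : Set G := {d | d ∈ D ∧ ∃ Y₁ ∈ F, ∃ Y₂ ∈ F, Y₁ ≠ Y₂ ∧ d • Y₁ = Y₂}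
  have N₀_norm : ∀ d ∈ N₀, d ∈ Subgroup.normalizer (W : Set G) := by
    rintro d ⟨hd, Y₁, h₁, Y₂, h₂, hne, hdY⟩
    rw [Subgroup.mem_normalizer_iff]
    intro g
    have hk := conj_mem Y₁ h₁ Y₂ h₂ hne d ⟨hd, hdY⟩
    rw [dinv d hd]
    constructor
    · exact hk g
    · intro hg
      have := hk _ hg
      have e : d * (d * g * d) * d = g := by
        have h := (hD d hd).2
        calc d * (d * g * d) * d = (d * d) * g * (d * d) := by group
          _ = g := by rw [h]; group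
      rwa [e] at this
  have N₀_F : ∀ d ∈ N₀, ∀ Y ∈ F, d • Y ∈ F := by
    rintro d hd0 Y hY g hg
    obtain ⟨hd, Y₁, h₁, Y₂, h₂, hne, hdY⟩ := hd0
    have hk := conj_mem Y₁ h₁ Y₂ h₂ hne d ⟨hd, hdY⟩ g hg
    have := hY _ hk
    have e : g • d • Y = d • (d * g * d) • Y := by
      rw [← mul_smul, ← mul_smul]
      congr 1
      have h := (hD d hd).2
      calc g * d = (d * d) * g * d := by rw [h, one_mul]
        _ = d * (d * g * d) := by group
    rw [e, this]
  -- W is not trivial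
  have hWne : W ≠ ⊥ := by
    have : ∃ Y₁ ∈ F, ∃ Y₂ ∈ F, Y₁ ≠ Y₂ := by
      have h1 : 1 < Nat.card F := by omega
      haveI : Finite F := inferInstance
      obtain ⟨⟨x, hx⟩, ⟨y, hy⟩, hxy⟩ := (Finite.one_lt_card_iff_nontrivial.mp h1).exists_pair_ne
      exact ⟨x, hx, y, hy, fun h => hxy (Subtype.ext h)⟩
    obtain ⟨Y₁, h₁, Y₂, h₂, hne⟩ := this
    have hne' : Nat.card {d : G // d ∈ D ∧ d • Y₁ = Y₂} ≠ 0 := by
      rw [hcard Y₁ Y₂ hne]; omega
    haveI : Nonempty {d : G // d ∈ D ∧ d • Y₁ = Y₂} := by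
      by_contra hcon
      rw [not_nonempty_iff] at hcon
      exact hne' (Nat.card_of_isEmpty)
    obtain ⟨a, ha⟩ := Classical.arbitrary {d : G // d ∈ D ∧ d • Y₁ = Y₂}
    obtain ⟨b, hb, hba⟩ := two_pts Y₁ Y₂ hne a ha
    have hab := prod_mem Y₁ h₁ Y₂ h₂ hne a b ha hb
    intro hbot
    rw [hbot, Subgroup.mem_bot] at hab
    apply hba
    have : a⁻¹ = b := inv_eq_of_mul_eq_one_right hab
    rw [← this, dinv a ha.1]
  -- no commuting pair
  have hnocomm : ∀ a ∈ N₀, ∀ b ∈ N₀, a ≠ b → ¬ Commute a b := by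
    intro a ha0 b hb0 hab hc
    obtain ⟨ha, Y₁, h₁, Y₂, h₂, hne, haY⟩ := id ha0
    obtain ⟨c, hc', hca⟩ := two_pts Y₁ Y₂ hne a ⟨ha, haY⟩
    have hnc' : ¬ Commute c a := hnc Y₁ Y₂ hne c a hc' ⟨ha, haY⟩ hca
    have htop := htop3 a ha b hb0.1 c hc'.1 hc hab hnc'
    have hc0 : c ∈ N₀ := ⟨hc'.1, Y₁, h₁, Y₂, h₂, hne, hc'.2⟩
    have hn : Subgroup.normalizer (W : Set G) = ⊤ := by
      rw [eq_top_iff, ← htop, closure_le]
      rintro x (rfl | rfl | rfl)
      · exact N₀_norm _ ha0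
      · exact N₀_norm _ hb0
      · exact N₀_norm _ hc0
    have hnormal : W.Normal := normalizer_eq_top_iff.mp hn
    have htopW := hsimple W hnormal hWne
    have hamem : a ∈ W := by rw [htopW]; exact mem_top _
    obtain ⟨k, hk⟩ := (hWp ⟨a, hamem⟩)
    have hk' : a ^ p ^ k = 1 := by
      have := congrArg (Subtype.val) hk
      simpa using this
    have h2 : orderOf a = 2 := orderOf_eq_prime (by rw [pow_two]; exact (hD a ha).2) (hD a ha).1
    have hdvd : 2 ∣ p ^ k := by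
      rw [← h2]; exact orderOf_dvd_of_pow_eq_one hk'
    have := (Nat.prime_two.dvd_of_dvd_pow hdvd)
    exact hp2 ((Nat.prime_dvd_prime_iff_eq Nat.prime_two hp).mp this).symm
  -- Lemma Z
  have hN₀ne : N₀.Nonempty := by
    have h1 : 1 < Nat.card F := by omega
    obtain ⟨⟨x, hx⟩, ⟨y, hy⟩, hxy⟩ := (Finite.one_lt_card_iff_nontrivial.mp h1).exists_pair_ne
    have hne : x ≠ y := fun h => hxy (Subtype.ext h)
    have hne' : Nat.card {d : G // d ∈ D ∧ d • x = y} ≠ 0 := by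
      rw [hcard x y hne]; omega
    haveI : Nonempty {d : G // d ∈ D ∧ d • x = y} := by
      by_contra hcon
      rw [not_nonempty_iff] at hcon
      exact hne' (Nat.card_of_isEmpty)
    obtain ⟨a, ha⟩ := Classical.arbitrary {d : G // d ∈ D ∧ d • x = y}
    exact ⟨a, ha.1, x, hx, y, hy, hne, ha.2⟩
  obtain ⟨k, hk⟩ := hZ N₀ hN₀ne
    (fun a ha => hD a ha.1)
    (by
      rintro a ha0 b ⟨hb, Y₁, h₁, Y₂, h₂, hne, hbY⟩
      have ha := ha0.1
      refine ⟨?_, a • Y₁, N₀_F a ha0 Y₁ h₁, a • Y₂, N₀_F a ha0 Y₂ h₂, ?_, ?_⟩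
      · have := hDc a b hb
        rwa [dinv a ha] at this
      · intro h
        exact hne (smul_left_cancel a h)
      · rw [mul_smul, mul_smul, inv_smul a ha, hbY])
    (fun a ha b hb hab => hord a ha.1 b hb.1 (hnocomm a ha b hb hab))
  -- the count
  let F' : Type _ := {Y : B // Y ∈ F ∧ Y ≠ Ywit}
  have hmoves : ∀ d ∈ N₀, d • Ywit ≠ Ywit := by
    intro d hd0 hfixd
    obtain ⟨hd, Y₁, h₁, Y₂, h₂, hne, hdY⟩ := id hd0
    obtain ⟨c, hc, hcd⟩ := two_pts Y₁ Y₂ hne d ⟨hd, hdY⟩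
    -- `r = c * d ∈ W`, `e = r d r⁻¹` fixes `Ywit`
    have hr := prod_mem Y₁ h₁ Y₂ h₂ hne c d hc ⟨hd, hdY⟩
    have he := W_line Y₁ h₁ Y₂ h₂ _ hr d ⟨hd, hdY⟩
    have hefix : (c * d * d * (c * d)⁻¹) • Ywit = Ywit := by
      rw [mul_smul, mul_smul, hFne _ (W.inv_mem hr), hfixd, hFne _ hr]
    have hcomm := hfix Ywit d hd _ he.1 hfixd hefix
    -- hence `d`, `c` commute
    have hcdinv := dinv c hc.1
    have hddinv := dinv d hd
    by_cases hh : (c * d * d * (c * d)⁻¹) = d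
    · apply hnc Y₁ Y₂ hne c d hc ⟨hd, hdY⟩ hcd
      have h5 : (c * d) * d = d * (c * d) := by
        have := congrArg (· * (c * d)) hh
        simpa [mul_assoc] using this
      have hdd := (hD d hd).2
      have h6 : c = d * c * d := by
        calc c = c * (d * d) := by rw [hdd, mul_one]
          _ = (c * d) * d := by group
          _ = d * (c * d) := h5
          _ = d * c * d := by group
      show c * d = d * c
      calc c * d = (d * c * d) * d := by rw [← h6]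
        _ = d * c * (d * d) := by group
        _ = d * c := by rw [hdd, mul_one]
    · exact hnc Y₁ Y₂ hne d _ ⟨hd, hdY⟩ he (Ne.symm hh) hcomm
  have hcount : Nat.card N₀ = Nat.card F' * p := by
    let φ : N₀ → F' := fun d => ⟨d.1 • Ywit, N₀_F d.1 d.2 Ywit hFne, hmoves d.1 d.2⟩
    have hfib : ∀ y : F', Nat.card {x : N₀ // φ x = y} = p := by
      rintro ⟨Y', hY'F, hY'ne⟩
      rw [← hcard Ywit Y' (Ne.symm hY'ne)]
      apply Nat.card_congr
      refine ⟨fun x => ⟨x.1.1, x.1.2.1, congrArg Subtype.val x.2⟩, fun x => ⟨⟨x.1, x.2.1, Ywit, hFne, Y', hY'F, (Ne.symm hY'ne), x.2.2⟩, Subtype.ext x.2.2⟩, ?_, ?_⟩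
      · intro x; rfl
      · intro x; rfl
    haveI : Fintype F' := Fintype.ofFinite _
    have := Nat.card_congr (Equiv.sigmaFiberEquiv φ)
    rw [Nat.card_sigma] at this
    simp only [hfib] at this
    simp only [Finset.sum_const, Finset.card_univ, smul_eq_mul] at this
    rw [← this, Nat.card_eq_fintype_card]
  have hF'card : Nat.card F' + 1 = Nat.card F := by
    have e : F = insert Ywit {Y | Y ∈ F ∧ Y ≠ Ywit} := by
      ext Y
      simp only [Set.mem_insert_iff, Set.mem_setOf_eq]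
      constructor
      · intro h
        by_cases hY : Y = Ywit
        · exact Or.inl hY
        · exact Or.inr ⟨h, hY⟩
      · rintro (rfl | h)
        · exact hFne
        · exact h.1
    have h2 : Nat.card F = Nat.card ↥(insert Ywit {Y | Y ∈ F ∧ Y ≠ Ywit} : Set B) := by
      exact congrArg (fun s : Set B => Nat.card s) e
    rw [h2, Nat.card_coe_set_eq, Set.ncard_insert_of_notMem (by simp) (Set.toFinite _),
      ← Nat.card_coe_set_eq]
    rfl
  -- arithmetic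
  have hF'2 : 2 ≤ Nat.card F' := by omega
  have hdvd : Nat.card F' ∣ p ^ k := by
    rw [← hk, hcount]
    exact dvd_mul_right _ _
  obtain ⟨j, hj, hjeq⟩ := (Nat.dvd_prime_pow hp).mp hdvd
  have hj1 : j ≠ 0 := by
    rintro rfl
    rw [pow_zero] at hjeq
    omega
  have hpF' : p ∣ Nat.card F' := by
    rw [hjeq]
    exact dvd_pow_self p hj1
  have : p ∣ 1 := by
    have h := (Nat.dvd_add_right hpF').mp (by rw [hF'card]; exact hFcard)
    exact h
  exact hp.one_lt.ne' (Nat.dvd_one.mp this)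

end Cfsg.Agent.Lib.OddTransCore.FinalCore
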