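/-
S1617: BLOCKS + FINAL: a `BHyp` does not exist. Paper proof in forum id 2293.
-/
import Cfsg.Agent.Lib.OddTransCore.BHyp
import Cfsg.Agent.Lib.OddTransCore.Block
import Cfsg.Agent.Lib.OddTransCore.FinalCore
import Cfsg.Agent.Lib.OddTrans.LemmaZ

set_option autoImplicit false

namespace Cfsg.Agent.Lib.OddTransCore

universe u

variable {G : Type u} [Group G] {p : ℕ} {D : Set G}

open Block

/-- The block hypotheses from `BHyp`. -/
lemma BHyp.toBH (h : BHyp p D) (hp : p.Prime) (hp2 : p ≠ 2) : BH p D where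
  ps := h.toPS
  hp := hp
  hp2 := hp2
  trans := fun a ha b hb c hc hab hbc => h.nbr b hb c hc a ha hbc hab
  prod := fun a ha b hb hc hne => h.prod a ha b hb hne hc

/-- Conjugation on blocks as an action. -/
@[reducible] def blocksAction (H : BH p D) : MulAction G (Blocks D) where
  smul g Y := H.act g Y
  one_smul Y := Subtype.ext (cI_one _)
  mul_smul g k Y := Subtype.ext (cI_mul g k _)

lemma bl_eq_of_comm (H : BH p D) {x x' : G} (hx : x ∈ D) (hx' : x' ∈ D) (hc : Commute x x') :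
    Bl D x = Bl D x' := by
  ext y
  constructor
  · rintro ⟨hy, hxy⟩
    exact ⟨hy, H.trans x' hx' x hx y hy hc.symm hxy⟩
  · rintro ⟨hy, hxy⟩
    exact ⟨hy, H.trans x hx x' hx' y hy hc hxy⟩

lemma comm_of_bl_eq (H : BH p D) {x x' : G} (hx : x ∈ D) (h : Bl D x = Bl D x') :
    Commute x x' := by
  have : x ∈ Bl D x' := by
    rw [← h]
    exact ⟨hx, Commute.refl x⟩
  exact this.2.symm

/-- `d • Bl x = Bl x'` means `d ∈ MM D x x'`. -/
lemma cI_bl_iff (H : BH p D) {d x x' : G} (hd : d ∈ D) (hx : x ∈ D) (hx' : x' ∈ D) :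
    cI d (Bl D x) = Bl D x' ↔ Commute (d * x * d) x' := by
  rw [H.cI_Bl, H.ps.inv_eq hd]
  have hm := H.mem_conj hd hx
  constructor
  · exact fun h => comm_of_bl_eq H hm h
  · exact fun h => bl_eq_of_comm H hm hx' h

/-- The block of a member of `D`, as a point of `Blocks D`. -/
def mkB (x : G) (hx : x ∈ D) : Blocks D := ⟨Bl D x, x, hx, rfl⟩

/-- BLOCKS, FINAL. -/
theorem bhyp_false [Finite G] (h : BHyp p D) (hp : p.Prime) (hp2 : p ≠ 2) : False := by
  classical
  have H : BH p D := h.toBH hp hp2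
  have hZ : ∀ M : Set G, M.Nonempty → (∀ a ∈ M, a ≠ 1 ∧ a * a = 1) → (∀ a ∈ M, ∀ b ∈ M, a * b * a ∈ M) →
      (∀ a ∈ M, ∀ b ∈ M, a ≠ b → orderOf (a * b) = p) → ∃ k : ℕ, Nat.card M = p ^ k :=
    fun M h1 h2 h3 h4 => Cfsg.Agent.Lib.OddTrans.LemmaZ.card_eq_prime_pow hp hp2 M h1 h2 h3 h4
  obtain ⟨a, ha, b, hb, hab, hcab, -⟩ := h.v4
  -- every member commutes with another one
  have hbig : ∀ x ∈ D, ∃ y ∈ D, Commute x y ∧ x ≠ y := by
    intro x hx
    obtain ⟨g, hg⟩ := h.cls a ha x hx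
    refine ⟨g * b * g⁻¹, h.cl b hb g, ?_, ?_⟩
    · rw [← hg]
      exact comm_conj hcab g
    · rw [← hg]
      intro he
      exact hab (by simpa using he)
  -- every member is noncentral in `D`
  have hA : ∀ x ∈ D, ∃ y ∈ D, ¬ Commute x y := by
    intro x hx
    by_contra hcon
    push Not at hcon
    have hcent : ∀ g : G, Commute x g := by
      intro g
      have hg : g ∈ Subgroup.closure D := by
        rw [h.gen]
        exact Subgroup.mem_top g
      induction hg using Subgroup.closure_induction with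
      | mem y hy => exact hcon y hy
      | one => exact Commute.one_right x
      | mul y z _ _ hy hz => exact hy.mul_right hz
      | inv y _ hy => exact hy.inv_right
    obtain ⟨g, hg⟩ := h.cls x hx a ha
    obtain ⟨g', hg'⟩ := h.cls x hx b hb
    apply hab
    rw [← hg, ← hg', (hcent g).eq.symm, (hcent g').eq.symm]
    simp
  letI : MulAction G (Blocks D) := blocksAction H
  haveI : Nonempty (Blocks D) := ⟨⟨Bl D a, a, ha, rfl⟩⟩
  -- the members of `D` moving one block to another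
  have hmem : ∀ (x x' : G) (hx : x ∈ D) (hx' : x' ∈ D) (d : G),
      (d ∈ D ∧ d • mkB x hx = mkB x' hx') ↔ d ∈ MM D x x' := by
    intro x x' hx hx' d
    constructor
    · rintro ⟨hd, he⟩
      have := congrArg Subtype.val he
      exact ⟨hd, (cI_bl_iff H hd hx hx').1 this⟩
    · rintro ⟨hd, hc⟩
      exact ⟨hd, Subtype.ext ((cI_bl_iff H hd hx hx').2 hc)⟩
  have hne : ∀ (x x' : G) (hx : x ∈ D) (hx' : x' ∈ D),
      mkB x hx ≠ mkB x' hx' → ¬ Commute x x' := by
    intro x x' hx hx' hn hc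
    exact hn (Subtype.ext (bl_eq_of_comm H hx hx' hc))
  refine FinalCore.final_core hp hp2 (D := D) (B := Blocks D) h.inv
    (fun g d hd => h.cl d hd g) ?_ ?_ ?_ ?_ ?_ ?_ ?_ h.simple hZ
  · exact H.p_dvd_blocks hZ hbig ha (hA a ha)
  · -- members fixing a block commute
    rintro ⟨Y, x, hx, rfl⟩ c hc e he hcY heY
    have h1 := congrArg Subtype.val hcY
    have h2 := congrArg Subtype.val heY
    have h1' : Commute (c * x * c) x := (cI_bl_iff H hc hx hx).1 h1
    have h2' : Commute (e * x * e) x := (cI_bl_iff H he hx hx).1 h2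
    have h3 : Commute x c := H.comm_of_swap hc hx h1'.symm
    have h4 : Commute x e := H.comm_of_swap he hx h2'.symm
    exact H.trans c hc x hx e he h3.symm h4
  · -- cardinality of a line
    rintro ⟨Y, x, hx, rfl⟩ ⟨Y', x', hx', rfl⟩ hYY
    have hn := hne x x' hx hx' hYY
    have e : Nat.card {d : G // d ∈ D ∧ d • mkB x hx = mkB x' hx'}
        = Nat.card (MM D x x') :=
      Nat.card_congr (Equiv.subtypeEquivRight (fun d => hmem x x' hx hx' d))
    refine Eq.trans e ?_
    rw [H.card_MM_eq hx hx' hn]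
    exact H.card_Bl_p hZ hbig hx hx' hn
  · -- noncommuting
    rintro ⟨Y, x, hx, rfl⟩ ⟨Y', x', hx', rfl⟩ hYY c e hc he hce
    have hn := hne x x' hx hx' hYY
    exact H.MM_not_comm hx hx' hn ((hmem x x' hx hx' c).1 hc) ((hmem x x' hx hx' e).1 he) hce
  · -- lines
    rintro ⟨Y, x, hx, rfl⟩ ⟨Y', x', hx', rfl⟩ hYY c e f hc he hf hce
    have hn := hne x x' hx hx' hYY
    have hcardM : Nat.card (MM D x x') = p := by
      rw [H.card_MM_eq hx hx' hn]
      exact H.card_Bl_p hZ hbig hx hx' hn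
    obtain ⟨i, -, hi⟩ := H.MM_line hcardM hx hx' hn ((hmem x x' hx hx' c).1 hc)
      ((hmem x x' hx hx' e).1 he) hce ((hmem x x' hx hx' f).1 hf)
    exact ⟨(i : ℤ), by rw [zpow_natCast]; exact hi⟩
  · -- order
    exact fun c hc e he hn => H.order_of_not_comm hc he hn
  · -- top3
    exact fun c hc e he q hq hce hne' hn => h.top3 c hc e he q hq hne' hce hn

end Cfsg.Agent.Lib.OddTransCore
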