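/-
S1617, THEOREM A: the minimal counterexample (helper44).
-/
import Cfsg.Agent.Lib.OddTransCore.Final

set_option autoImplicit false

namespace Cfsg.Agent.Lib.OddTransCore

universe u

variable {G : Type u} [Group G] {p : ℕ} {D : Set G}

lemma card_lt_of_ne_top [Finite G] {H : Subgroup G} (hH : H ≠ ⊤) : Nat.card H < Nat.card G := by
  refine lt_of_le_of_ne (Subgroup.card_le_card_group H) ?_
  intro h
  exact hH (Subgroup.eq_top_of_card_eq H h)

lemma card_quot_lt [Finite G] {N : Subgroup G} [N.Normal] (hN : N ≠ ⊥) :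
    Nat.card (G ⧸ N) < Nat.card G := by
  have h1 : Nat.card G = Nat.card (G ⧸ N) * Nat.card N :=
    Subgroup.card_eq_card_quotient_mul_card_subgroup N
  have h2 : 1 < Nat.card N := (Subgroup.one_lt_card_iff_ne_bot N).2 hN
  have h3 : 0 < Nat.card (G ⧸ N) := Nat.card_pos
  rw [h1]
  nlinarith

/-- A member of `D` commuting with all of `D` gives a contradiction when there are `a ≠ b` in `D`. -/
lemma VSys.false_of_central (h : VSys p D) {a : G} (ha : a ∈ D)
    (hc : ∀ d ∈ D, Commute a d) {x y : G} (hx : x ∈ D) (hy : y ∈ D) : x = y := by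
  have hall : ∀ g : G, Commute a g := by
    intro g
    have hg : g ∈ Subgroup.closure D := by rw [h.gen]; exact Subgroup.mem_top g
    induction hg using Subgroup.closure_induction with
    | mem x hx => exact hc x hx
    | one => exact Commute.one_right a
    | mul x y _ _ hx hy => exact hx.mul_right hy
    | inv x _ hx => exact hx.inv_right
  have key : ∀ z ∈ D, z = a := by
    intro z hz
    obtain ⟨g, rfl⟩ := h.cls a ha z hz
    rw [(hall g).symm.eq, mul_inv_cancel_right]
  rw [key x hx, key y hy]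

theorem VSys.simple_of_min [Finite G] (h : VSys p D) (hp : p.Prime)
    (IH : ∀ (X : Type u) [Group X] [Finite X] (D' : Set X), Nat.card X < Nat.card G → ¬ VSys p D')
    (N : Subgroup G) (hN : N.Normal) (hN1 : N ≠ ⊥) : N = ⊤ := by
  obtain ⟨a, ha, b, hb, -, hab, hc⟩ := h.v4
  by_cases hm : a * b ∈ N
  · rw [eq_top_iff, ← h.gen, Subgroup.closure_le]
    intro y hy
    exact h.mem_all N hc hy hm
  · exact absurd (h.vsys_quot hp N ha hb hab hc hm) (IH _ _ (card_quot_lt hN1))

theorem VSys.nbr_of_min [Finite G] (h : VSys p D) (hp : p.Prime) (hp2 : p ≠ 2)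
    (IH : ∀ (X : Type u) [Group X] [Finite X] (D' : Set X), Nat.card X < Nat.card G → ¬ VSys p D')
    {a d q : G} (ha : a ∈ D) (hd : d ∈ D) (hq : q ∈ D) (had : Commute a d) (hqa : Commute q a) :
    Commute q d := by
  by_contra hqd
  have hP : PS p D := h.toPS
  obtain ⟨a₀, ha₀, b₀, hb₀, hne₀, hab₀, hc₀⟩ := h.v4
  obtain ⟨g, rfl⟩ := h.cls a₀ ha₀ d hd
  set d₁ := g * a₀ * g⁻¹ with hd₁
  set d₂ := g * b₀ * g⁻¹ with hd₂
  have hd₂D : d₂ ∈ D := hP.cl b₀ hb₀ g
  have h12 : d₁ * d₂ = g * (a₀ * b₀) * g⁻¹ := by rw [hd₁, hd₂]; group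
  have hd₃D : d₁ * d₂ ∈ D := by rw [h12]; exact hP.cl _ hc₀ g
  have hc12 : Commute d₁ d₂ := by
    change d₁ * d₂ = d₂ * d₁
    rw [h12, hd₁, hd₂]
    calc g * (a₀ * b₀) * g⁻¹ = g * (b₀ * a₀) * g⁻¹ := by rw [hab₀.eq]
      _ = _ := by group
  have hne12 : d₁ ≠ d₂ := by
    intro e
    apply hne₀
    have : g * a₀ * g⁻¹ = g * b₀ * g⁻¹ := e
    simpa using this
  have hd₂2 : d₂ * d₂ = 1 := (hP.inv d₂ hd₂D).2
  have hd₁2 : d₁ * d₁ = 1 := (hP.inv d₁ hd).2
  -- the products
  have e1 : d₂ * (d₁ * d₂) = d₁ := by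
    calc d₂ * (d₁ * d₂) = (d₂ * d₁) * d₂ := by group
      _ = (d₁ * d₂) * d₂ := by rw [hc12.eq]
      _ = d₁ * (d₂ * d₂) := by group
      _ = d₁ := by rw [hd₂2, mul_one]
  have e2 : d₁ * (d₁ * d₂) = d₂ := by
    rw [← mul_assoc, hd₁2, one_mul]
  have hc2 : Commute d₂ (d₁ * d₂) := by
    change d₂ * (d₁ * d₂) = (d₁ * d₂) * d₂
    rw [e1, mul_assoc, hd₂2, mul_one]
  have hne2 : d₂ ≠ d₁ * d₂ := by
    intro e
    apply (hP.inv d₁ hd).1
    have : 1 * d₂ = d₁ * d₂ := by rw [one_mul]; exact e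
    exact (mul_right_cancel this).symm
  have hc1 : Commute d₁ (d₁ * d₂) := by
    change d₁ * (d₁ * d₂) = (d₁ * d₂) * d₁
    rw [e2, hc12.eq, mul_assoc, hd₁2, mul_one]
  have hne1 : d₁ ≠ d₁ * d₂ := by
    intro e
    apply (hP.inv d₂ hd₂D).1
    have : d₁ * 1 = d₁ * d₂ := by rw [mul_one]; exact e
    exact (mul_left_cancel this).symm
  -- `a` commutes with `d₂`
  have had₂ : Commute a d₂ := by
    apply hP.lemmaA_left hp hp2 hd₂D hd₃D ha hc2 hne2
    rw [e1]
    exact had
  -- `q` does not commute with `d₂`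
  have hqd₂ : ¬ Commute q d₂ := by
    intro hc
    apply hqd
    apply hP.lemmaA_left hp hp2 hd hd₃D hq hc1 hne1
    rw [e2]
    exact hc
  have hV := hP.vsys_triple hp hp2 hd hd₂D hq hc12 hne12 hd₃D hqd hqd₂
  have htop : Subgroup.closure ({d₁, d₂, q} : Set G) = ⊤ := by
    by_contra hne
    exact IH _ _ (card_lt_of_ne_top hne) hV
  have hall : ∀ g' : G, Commute a g' := by
    intro g'
    have hg : g' ∈ Subgroup.closure ({d₁, d₂, q} : Set G) := by rw [htop]; exact Subgroup.mem_top g'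
    induction hg using Subgroup.closure_induction with
    | mem x hx =>
      rcases hx with rfl | rfl | rfl
      · exact had
      · exact had₂
      · exact hqa.symm
    | one => exact Commute.one_right a
    | mul x y _ _ hx hy => exact hx.mul_right hy
    | inv x _ hx => exact hx.inv_right
  exact hne12 (h.false_of_central ha (fun x _ => hall x) hd hd₂D)

theorem VSys.prod_of_min [Finite G] (h : VSys p D) (hp : p.Prime) (hp2 : p ≠ 2)
    (IH : ∀ (X : Type u) [Group X] [Finite X] (D' : Set X), Nat.card X < Nat.card G → ¬ VSys p D')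
    {a b : G} (ha : a ∈ D) (hb : b ∈ D) (hne : a ≠ b) (hab : Commute a b) : a * b ∈ D := by
  by_contra hnD
  have hP : PS p D := h.toPS
  have hsimple := h.simple_of_min hp IH
  have hnbr : ∀ {a d q : G}, a ∈ D → d ∈ D → q ∈ D → Commute a d → Commute q a → Commute q d :=
    fun ha hd hq => h.nbr_of_min hp hp2 IH ha hd hq
  have ha2 : a * a = 1 := (hP.inv a ha).2
  have hb2 : b * b = 1 := (hP.inv b hb).2
  -- `z = a b` moves each `y` to a member commuting with `y`
  have hz : ∀ y ∈ D, Commute ((a * b) * y * (a * b)⁻¹) y := by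
    intro y hy
    have hzi : (a * b)⁻¹ = a * b := by
      rw [mul_inv_rev, hP.inv_eq ha, hP.inv_eq hb, hab.eq]
    by_cases hya : Commute y a
    · have hyb : Commute y b := hnbr ha hb hy hab hya
      have : (a * b) * y * (a * b)⁻¹ = y := by
        have hyz : Commute y (a * b) := hya.mul_right hyb
        rw [← hyz.eq, mul_inv_cancel_right]
      rw [this]
    · have hyb : ¬ Commute y b := fun hc => hya (hnbr hb ha hy hab.symm hc)
      rw [hzi]
      by_contra hd0
      have hd0' : ¬ Commute y ((a * b) * y * (a * b)) := fun hc => hd0 hc.symm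
      obtain ⟨c, hc, -, -, -, -, -, -, h1, h2⟩ := hP.triple_vsys hp hp2 ha hb hy hab hne hya hyb hd0'
      by_cases he : a * b * c = 1
      · apply hnD
        have : a * b = c⁻¹ := eq_inv_of_mul_eq_one_left he
        rw [this, hP.inv_eq hc]
        exact hc
      · obtain ⟨N, hN, hN1, -, hV⟩ := h2 he
        refine IH _ _ ?_ hV
        exact lt_of_lt_of_le (card_quot_lt hN1) (Subgroup.card_le_card_group _)
  -- the kernel on the blocks
  let N₀ : Subgroup G :=
    { carrier := {g | ∀ y ∈ D, Commute (g * y * g⁻¹) y}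
      one_mem' := by
        intro y _
        simp only [one_mul, inv_one, mul_one]
        exact Commute.refl y
      mul_mem' := by
        intro g k hg hk y hy
        have hy' : k * y * k⁻¹ ∈ D := hP.cl y hy k
        have h1 := hg _ hy'
        have h2 := hk y hy
        have h3 : g * (k * y * k⁻¹) * g⁻¹ ∈ D := hP.cl _ hy' g
        have := hnbr hy' hy h3 h2 h1
        have e : g * k * y * (g * k)⁻¹ = g * (k * y * k⁻¹) * g⁻¹ := by group
        rw [e]
        exact this
      inv_mem' := by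
        intro g hg y hy
        have hw : g⁻¹ * y * g⁻¹⁻¹ ∈ D := hP.cl y hy g⁻¹
        have h1 := hg _ hw
        have e : g * (g⁻¹ * y * g⁻¹⁻¹) * g⁻¹ = y := by group
        rw [e] at h1
        exact h1.symm }
  have hN₀ : N₀.Normal := by
    constructor
    intro g hg k y hy
    have hw : k⁻¹ * y * k⁻¹⁻¹ ∈ D := hP.cl y hy k⁻¹
    have h1 : Commute (g * (k⁻¹ * y * k⁻¹⁻¹) * g⁻¹) (k⁻¹ * y * k⁻¹⁻¹) := hg _ hw
    have h2 := h1.map (MulAut.conj k).toMonoidHom
    have e1 : (MulAut.conj k).toMonoidHom (g * (k⁻¹ * y * k⁻¹⁻¹) * g⁻¹) =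
        k * g * k⁻¹ * y * (k * g * k⁻¹)⁻¹ := by
      simp [MulAut.conj_apply]
      group
    have e2 : (MulAut.conj k).toMonoidHom (k⁻¹ * y * k⁻¹⁻¹) = y := by
      simp [MulAut.conj_apply]
      group
    rw [e1, e2] at h2
    exact h2
  have hzN : a * b ∈ N₀ := hz
  have hN₀1 : N₀ ≠ ⊥ := by
    intro hbot
    have : a * b = 1 := by
      have h1 : a * b ∈ (⊥ : Subgroup G) := hbot ▸ hzN
      exact h1
    apply hne
    have h2 : a * b = a * a := by rw [this, ha2]
    exact (mul_left_cancel h2).symm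
  have htop := hsimple N₀ hN₀ hN₀1
  -- so `D` is commuting
  have hcomm : ∀ x ∈ D, ∀ y ∈ D, Commute y x := by
    intro x hx y hy
    by_contra hn
    have h1 : x ∈ N₀ := by rw [htop]; exact Subgroup.mem_top x
    have h2 := h1 y hy
    rw [hP.inv_eq hx] at h2
    exact hP.not_comm_swap hp hp2 hy hx hn h2.symm
  exact hne (h.false_of_central ha (fun x hx => hcomm x hx a ha) ha hb)

/-- `Reduce`: simple, nbr, prod, top3. -/
theorem bhyp_of_min [Finite G] (h : VSys p D) (hp : p.Prime) (hp2 : p ≠ 2)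
    (IH : ∀ (X : Type u) [Group X] [Finite X] (D' : Set X), Nat.card X < Nat.card G → ¬ VSys p D') :
    BHyp p D where
  toVSys := h
  simple := h.simple_of_min hp IH
  nbr := fun _ ha _ hd _ hq => h.nbr_of_min hp hp2 IH ha hd hq
  prod := fun _ ha _ hb hne hab => h.prod_of_min hp hp2 IH ha hb hne hab
  top3 := by
    intro a ha b hb q hq hne hab hqa
    have hqb : ¬ Commute q b := fun hc => hqa (h.nbr_of_min hp hp2 IH hb ha hq hab.symm hc)
    have hc := h.prod_of_min hp hp2 IH ha hb hne hab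
    have hV := h.toPS.vsys_triple hp hp2 ha hb hq hab hne hc hqa hqb
    by_contra hne'
    exact IH _ _ (card_lt_of_ne_top hne') hV

theorem no_vsys_aux (hp : p.Prime) (hp2 : p ≠ 2) (n : ℕ) :
    ∀ (G : Type u) [Group G] [Finite G] (D : Set G), Nat.card G = n → ¬ VSys p D := by
  induction n using Nat.strong_induction_on with
  | _ n ih =>
    intro G _ _ D hn hV
    refine bhyp_false (bhyp_of_min hV hp hp2 ?_) hp hp2
    intro X _ _ D' hlt
    exact ih _ (hn ▸ hlt) X D' rfl

/-- THEOREM A: there is no `VSys`. -/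
theorem no_vsys (hp : p.Prime) (hp2 : p ≠ 2) (G : Type u) [Group G] [Finite G] (D : Set G) : ¬ VSys p D :=
  no_vsys_aux hp hp2 _ G D rfl

end Cfsg.Agent.Lib.OddTransCore
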